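import Cfsg.Agent.ChevGrp.RGrp

set_option autoImplicit false

/-!
Splitting of a central extension over a product of root subgroups.
-/

namespace Cfsg.Agent.MulF4

open Subgroup Cfsg.Agent.ChevGrp
open scoped commutatorElement

/-- data for lifting an interval of root subgroups -/
structure IData {Γ G : Type*} [Group Γ] [Group G] (σ : Γ →* G) (N n : ℕ) where
  cen : σ.ker ≤ center Γ
  X : Fin N → Subgroup G
  Y : Fin N → Subgroup Γ
  T : Subgroup Γ
  hT : ∀ h ∈ T, ∀ k : Fin N, (k : ℕ) < n → ∀ x ∈ Y k, h * x * h⁻¹ ∈ Y k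
  sur : ∀ k : Fin N, (k : ℕ) < n → ∀ x ∈ X k, ∃ y ∈ Y k, σ y = x
  map : ∀ k : Fin N, (k : ℕ) < n → ∀ y ∈ Y k, σ y ∈ X k
  inj : ∀ k : Fin N, (k : ℕ) < n → ∀ y ∈ Y k, σ y = 1 → y = 1
  comm : ∀ i j : Fin N, i < j → (j : ℕ) < n → ∀ x ∈ X i, ∀ y ∈ X j, ⁅x, y⁆ ∈ gen X (fun r => i < r ∧ r < j)
  dis : ∀ i : Fin N, (i : ℕ) < n → ∀ x ∈ X i, x ∈ gen X (fun r => i < r ∧ (r : ℕ) < n) → x = 1
  w2 : ∀ i j : Fin N, i < j → (j : ℕ) < n → ∃ h ∈ T, (∀ x ∈ Y i, h * x * h⁻¹ = x) ∧ ∀ x ∈ Y j, h * x * h⁻¹ = x → x = 1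

namespace IData

variable {Γ G : Type*} [Group Γ] [Group G] {σ : Γ →* G} {N n : ℕ} (D : IData σ N n)

/-- the interval subgroups -/
def J (a b : ℕ) : Subgroup Γ := gen D.Y (fun r => a ≤ (r : ℕ) ∧ (r : ℕ) < b)

/-- the interval subgroups downstairs -/
def Jg (a b : ℕ) : Subgroup G := gen D.X (fun r => a ≤ (r : ℕ) ∧ (r : ℕ) < b)

theorem J_mono {a b c d : ℕ} (h1 : c ≤ a) (h2 : b ≤ d) : D.J a b ≤ D.J c d :=
  gen_mono fun r hr => ⟨h1.trans hr.1, lt_of_lt_of_le hr.2 h2⟩

theorem Jg_mono {a b c d : ℕ} (h1 : c ≤ a) (h2 : b ≤ d) : D.Jg a b ≤ D.Jg c d :=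
  gen_mono fun r hr => ⟨h1.trans hr.1, lt_of_lt_of_le hr.2 h2⟩

theorem J_map {a b : ℕ} (hb : b ≤ n) {y : Γ} (hy : y ∈ D.J a b) : σ y ∈ D.Jg a b := by
  have : D.J a b ≤ (D.Jg a b).comap σ := by
    unfold J
    rw [gen_le]
    intro r hr y hy
    exact mem_gen hr (D.map r (lt_of_lt_of_le hr.2 hb) y hy)
  exact this hy

theorem J_sur {a b : ℕ} (hb : b ≤ n) {x : G} (hx : x ∈ D.Jg a b) : ∃ y ∈ D.J a b, σ y = x := by
  have : D.Jg a b ≤ (D.J a b).map σ := by
    unfold Jg
    rw [gen_le]
    intro r hr x hx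
    obtain ⟨y, hy, rfl⟩ := D.sur r (lt_of_lt_of_le hr.2 hb) x hx
    exact ⟨y, mem_gen hr hy, rfl⟩
  exact this hx

theorem J_T {a b : ℕ} (hb : b ≤ n) {h : Γ} (hh : h ∈ D.T) {y : Γ} (hy : y ∈ D.J a b) : h * y * h⁻¹ ∈ D.J a b :=
  conj_gen (X := D.Y) (P := fun r => a ≤ (r : ℕ) ∧ (r : ℕ) < b) (K := D.J a b)
    (fun r hr x hx => mem_gen hr (D.hT h hh r (lt_of_lt_of_le hr.2 hb) x hx)) y hy

theorem comm' {i j : Fin N} (h : i < j) (hj : (j : ℕ) < n) {x y : Γ} (hx : x ∈ D.Y i) (hy : y ∈ D.Y j) :
    ∃ z ∈ D.J (i + 1) j, σ ⁅x, y⁆ = σ z := by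
  have h1 := D.comm i j h hj _ (D.map i (lt_trans h hj) x hx) _ (D.map j hj y hy)
  rw [← map_commutatorElement] at h1
  have h2 : σ ⁅x, y⁆ ∈ D.Jg (i + 1) j := gen_mono (fun r hr => ⟨hr.1, hr.2⟩) h1
  obtain ⟨z, hz, e⟩ := D.J_sur hj.le h2
  exact ⟨z, hz, e.symm⟩

theorem eq_of_inj {a b : ℕ} (h : ∀ x ∈ D.J a b, σ x = 1 → x = 1) {x y : Γ} (hx : x ∈ D.J a b) (hy : y ∈ D.J a b)
    (e : σ x = σ y) : x = y := by
  have h1 := h (x * y⁻¹) (mul_mem hx (inv_mem hy)) (by rw [map_mul, map_inv, e, mul_inv_cancel])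
  exact mul_inv_eq_one.1 h1

theorem Y_le {a b : ℕ} {k : Fin N} (h1 : a ≤ k) (h2 : (k : ℕ) < b) {x : Γ} (hx : x ∈ D.Y k) : x ∈ D.J a b :=
  mem_gen ⟨h1, h2⟩ hx

/-- the lifted product of root subgroups meets the kernel trivially -/
theorem inj_J [Finite Γ] : ∀ len a : ℕ, a + len ≤ n → n ≤ N → ∀ x ∈ D.J a (a + len), σ x = 1 → x = 1 := by
  intro len
  induction len using Nat.strong_induction_on with
  | _ len ih =>
    intro a han hN x hx hx1
    rcases Nat.eq_zero_or_pos len with h0 | hpos
    · subst h0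
      have : D.J a (a + 0) = ⊥ := by
        rw [eq_bot_iff]
        unfold J
        rw [gen_le]
        intro r hr
        have := hr.1; have := hr.2
        omega
      rw [this, mem_bot] at hx
      exact hx
    · -- the first root subgroup
      obtain ⟨i, hi⟩ : ∃ i : Fin N, (i : ℕ) = a := ⟨⟨a, by omega⟩, rfl⟩
      have hin : (i : ℕ) < n := by omega
      -- commutators of the first root subgroup with the following ones
      have key : ∀ x ∈ D.Y i, ∀ k : Fin N, i < k → (k : ℕ) < a + len → ∀ y ∈ D.Y k, ⁅x, y⁆ ∈ D.J (a + 1) (a + len) := by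
        intro x hx k hik hk y hy
        have hik' : (i : ℕ) < k := hik
        obtain ⟨z, hz, ez⟩ := D.comm' hik (by omega) hx hy
        rw [hi] at hz
        by_cases hkl : (k : ℕ) + 1 < a + len
        · -- not the last one
          have h1 : ⁅x, y⁆ ∈ D.J a (a + (len - 1)) := by
            have hx' : x ∈ D.J a (a + (len - 1)) := D.Y_le (by omega) (by omega) hx
            have hy' : y ∈ D.J a (a + (len - 1)) := D.Y_le (by omega) (by omega) hy
            rw [commutatorElement_def]
            exact mul_mem (mul_mem (mul_mem hx' hy') (inv_mem hx')) (inv_mem hy')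
          have h2 := D.eq_of_inj (ih (len - 1) (by omega) a (by omega) hN) h1 (D.J_mono (by omega) (by omega) hz) ez
          rw [h2]
          exact D.J_mono le_rfl (by omega) hz
        · -- the last one
          have hk' : (k : ℕ) = a + len - 1 := by omega
          have hlen : 2 ≤ len := by omega
          -- the middle part
          have ihM : ∀ x ∈ D.J (a + 1) (a + len - 1), σ x = 1 → x = 1 := by
            have := ih (len - 2) (by omega) (a + 1) (by omega) hN
            have e : a + 1 + (len - 2) = a + len - 1 := by omega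
            rwa [e] at this
          have ihR : ∀ x ∈ D.J (a + 1) (a + len), σ x = 1 → x = 1 := by
            have := ih (len - 1) (by omega) (a + 1) (by omega) hN
            have e : a + 1 + (len - 1) = a + len := by omega
            rwa [e] at this
          -- the last root subgroup normalizes the middle part
          have hnorm : ∀ y ∈ D.Y k, ∀ w ∈ D.J (a + 1) (a + len - 1), y * w * y⁻¹ ∈ D.J (a + 1) (a + len - 1) := by
            intro y hy w hw
            refine conj_gen (X := D.Y) (P := fun r => a + 1 ≤ (r : ℕ) ∧ (r : ℕ) < a + len - 1)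
              (K := D.J (a + 1) (a + len - 1)) ?_ w hw
            intro r hr v hv
            have hrk : r < k := by
              rw [Fin.lt_def]; omega
            obtain ⟨z, hz, ez⟩ := D.comm' hrk (by omega) hv hy
            have h1 : ⁅v, y⁆ ∈ D.J (a + 1) (a + len) := by
              have hx' : v ∈ D.J (a + 1) (a + len) := D.Y_le (by omega) (by omega) hv
              have hy' : y ∈ D.J (a + 1) (a + len) := D.Y_le (by omega) (by omega) hy
              rw [commutatorElement_def]
              exact mul_mem (mul_mem (mul_mem hx' hy') (inv_mem hx')) (inv_mem hy')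
            have h2 := D.eq_of_inj ihR h1 (D.J_mono (by omega) (by omega) hz) ez
            have h3 : ⁅v, y⁆ ∈ D.J (a + 1) (a + len - 1) := by
              rw [h2]; exact D.J_mono (by omega) (by omega) hz
            have h4 : y * v * y⁻¹ = ⁅v, y⁆⁻¹ * v := by rw [commutatorElement_def]; group
            rw [h4]
            exact mul_mem (inv_mem h3) (D.Y_le (by omega) (by omega) hv)
          obtain ⟨h, hh, hc1, hc2⟩ := D.w2 i k hik (by omega)
          -- choose the middle components
          have hex : ∀ y : D.Y k, ∃ z ∈ D.J (a + 1) (a + len - 1), σ ⁅x, (y : Γ)⁆ = σ z := by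
            intro y
            obtain ⟨z, hz, ez⟩ := D.comm' hik (by omega) hx y.2
            rw [hi, hk'] at hz
            exact ⟨z, hz, ez⟩
          choose z hz hez using hex
          let f : D.Y k → Γ := fun y => ⁅x, (y : Γ)⁆ * (z y)⁻¹
          have hfk : ∀ y, σ (f y) = 1 := fun y => by
            show σ (⁅x, (y : Γ)⁆ * (z y)⁻¹) = 1
            rw [map_mul, map_inv, hez, mul_inv_cancel]
          have hfc : ∀ y g, g * f y = f y * g := fun y g => mem_center_iff.1 (D.cen (hfk y)) g
          have hfe : ∀ y : D.Y k, ⁅x, (y : Γ)⁆ = f y * z y := fun y => by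
            show ⁅x, (y : Γ)⁆ = ⁅x, (y : Γ)⁆ * (z y)⁻¹ * z y
            rw [inv_mul_cancel_right]
          -- uniqueness
          have huniq : ∀ (y : D.Y k) (c w : Γ), σ c = 1 → w ∈ D.J (a + 1) (a + len - 1) → ⁅x, (y : Γ)⁆ = c * w → f y = c := by
            intro y c w hc hw e
            rw [hfe] at e
            have h1 : z y * w⁻¹ = (f y)⁻¹ * c := by
              have : z y = (f y)⁻¹ * (c * w) := by rw [← e]; group
              rw [this]; group
            have h2 := ihM (z y * w⁻¹) (mul_mem (hz y) (inv_mem hw)) (by rw [h1, map_mul, map_inv, hfk, hc, inv_one, one_mul])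
            rw [h2] at h1
            exact inv_mul_eq_one.1 h1.symm
          have hfm : ∀ y y' : D.Y k, f (y * y') = f y * f y' := by
            intro y y'
            apply huniq (y * y') (f y * f y') (z y * (y * z y' * (y : Γ)⁻¹))
            · rw [map_mul, hfk, hfk, one_mul]
            · exact mul_mem (hz y) (hnorm y y.2 _ (hz y'))
            · have e1 : ⁅x, ((y * y' : D.Y k) : Γ)⁆ = ⁅x, (y : Γ)⁆ * ((y : Γ) * ⁅x, (y' : Γ)⁆ * (y : Γ)⁻¹) := by
                rw [Subgroup.coe_mul, commutatorElement_def, commutatorElement_def, commutatorElement_def]; group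
              rw [e1, hfe, hfe]
              calc f y * z y * ((y : Γ) * (f y' * z y') * (y : Γ)⁻¹)
                  = f y * z y * ((y : Γ) * f y') * (z y' * (y : Γ)⁻¹) := by group
                _ = f y * z y * (f y' * (y : Γ)) * (z y' * (y : Γ)⁻¹) := by rw [hfc y' (y : Γ)]
                _ = f y * (z y * f y') * ((y : Γ) * z y' * (y : Γ)⁻¹) := by group
                _ = f y * (f y' * z y) * ((y : Γ) * z y' * (y : Γ)⁻¹) := by rw [hfc y' (z y)]
                _ = _ := by group
          have hconj : ∀ y : D.Y k, f ⟨h * y * h⁻¹, D.hT h hh k (by omega) y y.2⟩ = f y := by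
            intro y
            apply huniq _ (f y) (h * z y * h⁻¹) (hfk y) (D.J_T (by omega) hh (hz y))
            have e1 : ⁅x, h * (y : Γ) * h⁻¹⁆ = h * ⁅x, (y : Γ)⁆ * h⁻¹ := by
              have : ⁅x, h * (y : Γ) * h⁻¹⁆ = ⁅h * x * h⁻¹, h * (y : Γ) * h⁻¹⁆ := by rw [hc1 x hx]
              rw [this, commutatorElement_def, commutatorElement_def]; group
            show ⁅x, h * (y : Γ) * h⁻¹⁆ = _
            rw [e1, hfe]
            calc h * (f y * z y) * h⁻¹ = (h * f y) * z y * h⁻¹ := by group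
              _ = (f y * h) * z y * h⁻¹ := by rw [hfc y h]
              _ = _ := by group
          -- the map is trivial
          have hinj : Function.Injective (fun y : D.Y k =>
              (⟨h * y * h⁻¹, D.hT h hh k (by omega) y y.2⟩ * y⁻¹ : D.Y k)) := by
            intro y y' e
            have e1 : h * (y : Γ) * h⁻¹ * (y : Γ)⁻¹ = h * (y' : Γ) * h⁻¹ * (y' : Γ)⁻¹ := congrArg Subtype.val e
            have e2 : h * ((y' : Γ)⁻¹ * y) * h⁻¹ = (y' : Γ)⁻¹ * y := by
              have e3 : h * (y : Γ) * h⁻¹ = h * (y' : Γ) * h⁻¹ * (y' : Γ)⁻¹ * y := by rw [← e1]; group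
              calc h * ((y' : Γ)⁻¹ * y) * h⁻¹ = (h * (y' : Γ) * h⁻¹)⁻¹ * (h * (y : Γ) * h⁻¹) := by group
                _ = (h * (y' : Γ) * h⁻¹)⁻¹ * (h * (y' : Γ) * h⁻¹ * (y' : Γ)⁻¹ * y) := by rw [e3]
                _ = _ := by group
            have e4 := hc2 _ ((D.Y k).mul_mem ((D.Y k).inv_mem y'.2) y.2) e2
            exact Subtype.ext (inv_mul_eq_one.1 e4).symm
          obtain ⟨y', hy'⟩ := (Finite.injective_iff_surjective.1 hinj) ⟨y, hy⟩
          have hf1 : f ⟨y, hy⟩ = 1 := by
            rw [← hy', hfm, hconj, ← hfm, mul_inv_cancel]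
            apply huniq 1 1 1 (map_one σ) (one_mem _)
            rw [Subgroup.coe_one, commutatorElement_one_right, one_mul]
          have h5 := hfe ⟨y, hy⟩
          rw [hf1, one_mul] at h5
          rw [h5]
          exact D.J_mono le_rfl (by omega) (hz _)
      have hn : ∀ x ∈ D.Y i, ∀ w ∈ D.J (a + 1) (a + len), x * w * x⁻¹ ∈ D.J (a + 1) (a + len) := by
        intro x hx w hw
        refine conj_gen (X := D.Y) (P := fun r => a + 1 ≤ (r : ℕ) ∧ (r : ℕ) < a + len)
          (K := D.J (a + 1) (a + len)) ?_ w hw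
        intro r hr v hv
        have h1 := key x hx r (by rw [Fin.lt_def]; omega) hr.2 v hv
        have h2 : x * v * x⁻¹ = ⁅x, v⁆ * v := by rw [commutatorElement_def]; group
        rw [h2]
        exact mul_mem h1 (mem_gen hr hv)
      have hsup : x ∈ D.Y i ⊔ D.J (a + 1) (a + len) := by
        have : D.J a (a + len) ≤ D.Y i ⊔ D.J (a + 1) (a + len) := by
          show gen D.Y (fun r => a ≤ (r : ℕ) ∧ (r : ℕ) < a + len) ≤ _
          rw [gen_le]
          intro r hr
          by_cases h : (r : ℕ) = a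
          · have : r = i := Fin.ext (by omega)
            rw [this]; exact le_sup_left
          · exact le_trans (le_gen (X := D.Y) (P := fun r => a + 1 ≤ (r : ℕ) ∧ (r : ℕ) < a + len)
              ⟨by have := hr.1; omega, hr.2⟩) le_sup_right
        exact this hx
      obtain ⟨u, hu, v, hv, rfl⟩ := mem_sup_of_normalizes hn hsup
      have e1 : σ u = (σ v)⁻¹ := by
        rw [map_mul] at hx1
        exact eq_inv_of_mul_eq_one_left hx1
      have e2 : σ u = 1 := by
        apply D.dis i hin _ (D.map i hin u hu)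
        rw [e1]
        apply inv_mem
        have := D.J_map (by omega) hv
        exact gen_mono (fun r hr => ⟨by rw [Fin.lt_def]; have := hr.1; omega, lt_of_lt_of_le hr.2 (by omega)⟩) this
      have e3 := D.inj i hin u hu e2
      rw [e3, map_mul, map_one, one_mul] at hx1
      have e4 : v = 1 := by
        have h6 := ih (len - 1) (by omega) (a + 1) (by omega) hN v
        have e : a + 1 + (len - 1) = a + len := by omega
        rw [e] at h6
        exact h6 hv hx1
      rw [e3, e4, mul_one]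

end IData

end Cfsg.Agent.MulF4
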