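import Cfsg.Agent.Tw4.Weyl16

set_option autoImplicit false
set_option maxRecDepth 100000

/-!
Intervals of root subgroups for the Weyl group of order 16.
-/

namespace Cfsg.Agent.MulF4

open Subgroup Cfsg.Agent.ChevGrp Cfsg.Agent.ChevWeyl Cfsg.Agent.Tw4
open scoped commutatorElement

theorem perm_apply_inv {α : Type*} (u : Equiv.Perm α) (r : α) : u (u⁻¹ r) = r := u.apply_symm_apply r

theorem perm_inv_apply {α : Type*} (u : Equiv.Perm α) (r : α) : u⁻¹ (u r) = r := u.symm_apply_apply r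

/-- the positive system starting at `c` -/
def Q16 (c r : Fin 16) : Prop := ((r : ℕ) + 16 - c) % 16 < 8

instance : ∀ c r, Decidable (Q16 c r) := fun _ _ => Nat.decLt _ _

theorem tabC : ∀ c : Fin 16, ∃ k : Fin 16, ∃ i : Fin 2, el16 k (p16 i) = c ∧ ∀ r, (Q16 c (el16 k r) ↔ pos16 r) := by decide +kernel

theorem tabD : ∀ d : Fin 16, ∃ k : Fin 16, ∃ i : Fin 2, el16 k (p16 i) = d ∧ ∀ r, (Q16 (d + 9) (el16 k r) ↔ pos16 r) := by
  decide +kernel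

theorem tabE : ∀ c e : Fin 16, ∃ k k' : Fin 16, (∀ r, Q16 c (el16 k r) ↔ pos16 r) ∧
    ∀ r, (Q16 e (el16 k r) ↔ ¬ pos16 (el16 k' r)) := by decide +kernel

section

variable {G : Type*} [Group G] (R : RGrp S16 G)

theorem exists_act16 (k : Fin 16) : ∃ g ∈ R.N, R.Act g (el16 k) := RGrp.exists_act_of_mem (el16_mem k)

/-- `Um` as an intersection -/
theorem Um_inter {u : Equiv.Perm (Fin 16)} {g : G} (hg : R.Act g u) (hgN : g ∈ R.N) {y : G} (hy : y ∈ R.U)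
    (h : g * y * g⁻¹ ∈ R.V) : y ∈ R.Um u := by
  obtain ⟨b', hb', z, hz, e⟩ := RGrp.exists_bnu hg hgN (R.U_le_B hy)
  have h1 := RGrp.conj_Um hg z hz
  have h2 : b' = (g * y * g⁻¹) * (g * z * g⁻¹)⁻¹ := by
    have : b' = g * y * z⁻¹ * g⁻¹ := by rw [e]; group
    rw [this]; group
  have h3 : b' = 1 := R.B_inf_V hb' (by rw [h2]; exact mul_mem h (inv_mem h1))
  rw [h3, one_mul] at e
  have : y = z := mul_left_cancel e
  rw [this]; exact hz

theorem inter16 {c e : Fin 16} {y : G} (h1 : y ∈ gen R.X (Q16 c)) (h2 : y ∈ gen R.X (Q16 e)) :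
    y ∈ gen R.X (fun r => Q16 c r ∧ Q16 e r) := by
  obtain ⟨k, k', hk, hk'⟩ := tabE c e
  obtain ⟨n, hn, hna⟩ := exists_act16 R k
  obtain ⟨m, hm, hma⟩ := exists_act16 R k'
  have e1 : n⁻¹ * y * n ∈ R.U := by
    refine RGrp.act_gen' hna (Q := S16.Pos) ?_ y h1
    intro r hr
    have h3 := (hk ((el16 k)⁻¹ r))
    rw [perm_apply_inv] at h3
    exact h3.1 hr
  have e2 : n⁻¹ * y * n ∈ gen R.X (fun r => ¬ pos16 (el16 k' r)) := by
    refine RGrp.act_gen' hna (Q := fun r => ¬ pos16 (el16 k' r)) ?_ y h2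
    intro r hr
    have h3 := (hk' ((el16 k)⁻¹ r))
    rw [perm_apply_inv] at h3
    exact h3.1 hr
  have e3 : m * (n⁻¹ * y * n) * m⁻¹ ∈ R.V := RGrp.act_gen hma (Q := fun r => ¬ S16.Pos r) (fun r hr => hr) _ e2
  have e4 := Um_inter R hma hm e1 e3
  have e5 : n * (n⁻¹ * y * n) * n⁻¹ ∈ gen R.X (fun r => Q16 c r ∧ Q16 e r) := by
    refine RGrp.act_gen hna (P := fun r => S16.Pos r ∧ ¬ S16.Pos (el16 k' r)) ?_ _ e4
    intro r hr
    exact ⟨(hk r).2 hr.1, (hk' r).2 hr.2⟩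
  have e6 : n * (n⁻¹ * y * n) * n⁻¹ = y := by group
  rwa [e6] at e5

/-- a root subgroup normalizes the rest of the positive system starting at it -/
theorem norm_left {c : Fin 16} {x y : G} (hx : x ∈ R.X c) (hy : y ∈ gen R.X (fun r => Q16 c r ∧ r ≠ c)) :
    x * y * x⁻¹ ∈ gen R.X (fun r => Q16 c r ∧ r ≠ c) := by
  obtain ⟨k, i, hk, hk'⟩ := tabC c
  obtain ⟨n, hn, hna⟩ := exists_act16 R k
  have e1 : n⁻¹ * y * n ∈ gen R.X (fun r => S16.Pos r ∧ r ≠ S16.p i) := by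
    refine RGrp.act_gen' hna ?_ y hy
    intro r hr
    have h3 := (hk' ((el16 k)⁻¹ r))
    rw [perm_apply_inv] at h3
    refine ⟨h3.1 hr.1, fun h => hr.2 ?_⟩
    have h4 : el16 k ((el16 k)⁻¹ r) = el16 k (p16 i) := congrArg _ h
    rw [perm_apply_inv, hk] at h4
    exact h4
  have e2 : n⁻¹ * x * n ∈ R.X (S16.p i) := by
    have := hna.conj' hx
    have h5 : (el16 k)⁻¹ c = S16.p i := by rw [← hk, perm_inv_apply]; rfl
    rwa [h5] at this
  have e3 := R.XU i _ e2 _ e1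
  have e4 : n * ((n⁻¹ * x * n) * (n⁻¹ * y * n) * (n⁻¹ * x * n)⁻¹) * n⁻¹ ∈ gen R.X (fun r => Q16 c r ∧ r ≠ c) := by
    refine RGrp.act_gen hna (P := fun r => S16.Pos r ∧ r ≠ S16.p i) ?_ _ e3
    intro r hr
    refine ⟨(hk' r).2 hr.1, fun h => hr.2 ?_⟩
    apply (el16 k).injective
    rw [h]; exact hk.symm
  have e5 : n * ((n⁻¹ * x * n) * (n⁻¹ * y * n) * (n⁻¹ * x * n)⁻¹) * n⁻¹ = x * y * x⁻¹ := by group
  rwa [e5] at e4

/-- a root subgroup normalizes the rest of the positive system ending at it -/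
theorem norm_right {d : Fin 16} {x y : G} (hx : x ∈ R.X d) (hy : y ∈ gen R.X (fun r => Q16 (d + 9) r ∧ r ≠ d)) :
    x * y * x⁻¹ ∈ gen R.X (fun r => Q16 (d + 9) r ∧ r ≠ d) := by
  obtain ⟨k, i, hk, hk'⟩ := tabD d
  obtain ⟨n, hn, hna⟩ := exists_act16 R k
  have e1 : n⁻¹ * y * n ∈ gen R.X (fun r => S16.Pos r ∧ r ≠ S16.p i) := by
    refine RGrp.act_gen' hna ?_ y hy
    intro r hr
    have h3 := (hk' ((el16 k)⁻¹ r))
    rw [perm_apply_inv] at h3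
    refine ⟨h3.1 hr.1, fun h => hr.2 ?_⟩
    have h4 : el16 k ((el16 k)⁻¹ r) = el16 k (p16 i) := congrArg _ h
    rw [perm_apply_inv, hk] at h4
    exact h4
  have e2 : n⁻¹ * x * n ∈ R.X (S16.p i) := by
    have := hna.conj' hx
    have h5 : (el16 k)⁻¹ d = S16.p i := by rw [← hk, perm_inv_apply]; rfl
    rwa [h5] at this
  have e3 := R.XU i _ e2 _ e1
  have e4 : n * ((n⁻¹ * x * n) * (n⁻¹ * y * n) * (n⁻¹ * x * n)⁻¹) * n⁻¹ ∈ gen R.X (fun r => Q16 (d + 9) r ∧ r ≠ d) := by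
    refine RGrp.act_gen hna (P := fun r => S16.Pos r ∧ r ≠ S16.p i) ?_ _ e3
    intro r hr
    refine ⟨(hk' r).2 hr.1, fun h => hr.2 ?_⟩
    apply (el16 k).injective
    rw [h]; exact hk.symm
  have e5 : n * ((n⁻¹ * x * n) * (n⁻¹ * y * n) * (n⁻¹ * x * n)⁻¹) * n⁻¹ = x * y * x⁻¹ := by group
  rwa [e5] at e4

theorem tab_lt : ∀ i j : Fin 16, i < j → (j : ℕ) < 8 → (Q16 i j ∧ j ≠ i) ∧ (Q16 (j + 9) i ∧ i ≠ j) ∧
    (∀ r, Q16 i r ∧ r ≠ i → Q16 (i + 1) r) ∧ (∀ r, Q16 (j + 9) r ∧ r ≠ j → Q16 (j + 8) r) ∧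
    ∀ r, Q16 (i + 1) r ∧ Q16 (j + 8) r → i < r ∧ r < j := by decide +kernel

/-- the commutator relations -/
theorem comm16 {i j : Fin 16} (h : i < j) (hj : (j : ℕ) < 8) {x y : G} (hx : x ∈ R.X i) (hy : y ∈ R.X j) :
    ⁅x, y⁆ ∈ gen R.X (fun r => i < r ∧ r < j) := by
  obtain ⟨h1, h2, h3, h4, h5⟩ := tab_lt i j h hj
  have e1 : ⁅x, y⁆ ∈ gen R.X (Q16 (i + 1)) := by
    have h6 := norm_left R hx (mem_gen (X := R.X) (P := fun r => Q16 i r ∧ r ≠ i) h1 hy)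
    have h7 := mul_mem h6 (inv_mem (mem_gen (X := R.X) (P := fun r => Q16 i r ∧ r ≠ i) h1 hy))
    exact gen_mono h3 h7
  have e2 : ⁅x, y⁆ ∈ gen R.X (Q16 (j + 8)) := by
    have h6 := norm_right R hy (mem_gen (X := R.X) (P := fun r => Q16 (j + 9) r ∧ r ≠ j) h2 (inv_mem hx))
    have h7 := mul_mem (mem_gen (X := R.X) (P := fun r => Q16 (j + 9) r ∧ r ≠ j) h2 hx) h6
    have h8 : x * (y * x⁻¹ * y⁻¹) = ⁅x, y⁆ := by rw [commutatorElement_def]; group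
    rw [h8] at h7
    exact gen_mono h4 h7
  exact gen_mono h5 (inter16 R e1 e2)

theorem tab_dis : ∀ i : Fin 16, (i : ℕ) < 8 → ∃ k : Fin 16, pos16 (el16 k (i + 8)) ∧
    (¬ pos16 (el16 k i)) ∧ ∀ r : Fin 16, i < r → (r : ℕ) < 8 → pos16 (el16 k r) := by decide +kernel

/-- a root subgroup meets the product of the following ones trivially -/
theorem dis16 {i : Fin 16} (hi : (i : ℕ) < 8) {x : G} (hx : x ∈ R.X i)
    (h : x ∈ gen R.X (fun r => i < r ∧ (r : ℕ) < 8)) : x = 1 := by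
  obtain ⟨k, -, h2, h3⟩ := tab_dis i hi
  obtain ⟨n, hn, hna⟩ := exists_act16 R k
  have e1 : n * x * n⁻¹ ∈ R.V := R.X_le_V h2 (hna.conj hx)
  have e2 : n * x * n⁻¹ ∈ R.U := RGrp.act_gen hna (Q := S16.Pos) (fun r hr => h3 r hr.1 hr.2) _ h
  have e3 := R.U_inf_V e2 e1
  exact (conj_eq_one_iff).1 e3

end

end Cfsg.Agent.MulF4
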