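import Cfsg.Agent.H91.GenCent

set_option autoImplicit false

/-!
A noncyclic abelian group of odd order acting on a 2-group whose relevant subgroups have orders powers of `q`.
-/

namespace Cfsg.Agent.MulF4

open Subgroup

/-- fixed points of a `p`-element -/
theorem fix_mod {G : Type*} [Group G] [Finite G] {p : ℕ} [Fact p.Prime] (V : Subgroup G) {b : G} {m : ℕ} (hb : b ^ p ^ m = 1)
    (hV : ∀ u ∈ V, b * u * b⁻¹ ∈ V) : Nat.card V ≡ Nat.card ↥(V ⊓ centralizer {b}) [MOD p] := by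
  classical
  have : Fintype V := Fintype.ofFinite _
  let f : Function.End V := fun u => ⟨b * u * b⁻¹, hV u u.2⟩
  have hf : ∀ (k : ℕ) (u : V), ((f ^ k) u : G) = b ^ k * u * (b ^ k)⁻¹ := by
    intro k
    induction k with
    | zero => intro u; rw [pow_zero, pow_zero, one_mul, inv_one, mul_one]; rfl
    | succ k ih =>
      intro u
      have h1 : (f ^ (k + 1)) u = (f ^ k) (f u) := by rw [pow_succ]; rfl
      rw [h1, ih]
      show b ^ k * (b * u * b⁻¹) * (b ^ k)⁻¹ = _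
      rw [pow_succ]; group
  have h1 : f ^ p ^ m = 1 := by
    funext u
    apply Subtype.ext
    rw [hf, hb, one_mul, inv_one, mul_one]; rfl
  have h2 := Equiv.Perm.card_fixedPoints_modEq h1
  rw [← Nat.card_eq_fintype_card, ← Nat.card_eq_fintype_card] at h2
  have h3 : Nat.card ↥(V ⊓ centralizer {b}) = Nat.card ↑(Function.fixedPoints f) := by
    refine Nat.card_congr ⟨fun u => ⟨⟨(u : G), u.2.1⟩, ?_⟩, fun u => ⟨((u : V) : G), (u : V).2, ?_⟩, fun _ => rfl, fun _ => rfl⟩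
    · apply Subtype.ext
      show b * (u : G) * b⁻¹ = u
      have := mem_centralizer_singleton_iff.1 u.2.2
      rw [← this, mul_inv_cancel_right]
    · show ((u : V) : G) ∈ centralizer {b}
      rw [mem_centralizer_singleton_iff]
      have h4 : b * ((u : V) : G) * b⁻¹ = ((u : V) : G) := congrArg Subtype.val (u.2 : f u = u)
      exact (mul_inv_eq_iff_eq_mul.1 h4).symm
  rw [h3]; exact h2

/-- the order of `q` modulo `p` is four -/
theorem ord_four {p q : ℕ} (hp : p.Prime) (hp2 : p ≠ 2) (hpq : p ∣ q ^ 2 + 1) {k v : ℕ} (hkv : k ≤ v)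
    (h : q ^ v ≡ q ^ k [MOD p]) : 4 ∣ v - k := by
  have : Fact p.Prime := ⟨hp⟩
  obtain ⟨m, rfl⟩ : ∃ m, v = k + m := ⟨v - k, by omega⟩
  rw [Nat.add_sub_cancel_left]
  have hq : ((q : ℕ) : ZMod p) ^ 2 = -1 := by
    have h1 : ((q ^ 2 + 1 : ℕ) : ZMod p) = 0 := (ZMod.natCast_eq_zero_iff _ _).2 hpq
    push_cast at h1
    exact eq_neg_of_add_eq_zero_left h1
  have h2 : ((q : ℕ) : ZMod p) ^ (k + m) = ((q : ℕ) : ZMod p) ^ k := by
    have := (ZMod.natCast_eq_natCast_iff _ _ _).2 h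
    push_cast at this
    exact this
  have hne : ((q : ℕ) : ZMod p) ≠ 0 := by
    intro h0
    rw [h0, zero_pow (by norm_num)] at hq
    have : (1 : ZMod p) = 0 := by rw [← neg_eq_zero]; exact hq.symm
    exact one_ne_zero this
  have h3 : ((q : ℕ) : ZMod p) ^ m = 1 := by
    rw [pow_add] at h2
    have h4 : ((q : ℕ) : ZMod p) ^ k * ((q : ℕ) : ZMod p) ^ m = ((q : ℕ) : ZMod p) ^ k * 1 := by rw [mul_one]; exact h2
    exact mul_left_cancel₀ (pow_ne_zero k hne) h4
  have h11 : (-1 : ZMod p) ≠ 1 := by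
    intro h
    have h4 : ((2 : ℕ) : ZMod p) = 0 := by
      push_cast
      have : (1 : ZMod p) + 1 = 0 := by nth_rewrite 1 [← h]; ring
      rw [← this]; norm_num
    rw [ZMod.natCast_eq_zero_iff] at h4
    exact hp2 ((Nat.prime_dvd_prime_iff_eq hp Nat.prime_two).1 h4)
  obtain ⟨a, r, hr, rfl⟩ : ∃ a r, r < 4 ∧ m = 4 * a + r := ⟨m / 4, m % 4, Nat.mod_lt _ (by norm_num), by omega⟩
  have h4 : ((q : ℕ) : ZMod p) ^ r = 1 := by
    rw [pow_add, pow_mul] at h3
    have h5 : ((q : ℕ) : ZMod p) ^ 4 = 1 := by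
      calc ((q : ℕ) : ZMod p) ^ 4 = (((q : ℕ) : ZMod p) ^ 2) ^ 2 := by ring
        _ = 1 := by rw [hq]; ring
    rw [h5, one_pow, one_mul] at h3
    exact h3
  interval_cases r
  · exact ⟨a, by omega⟩
  · exfalso
    rw [pow_one] at h4
    rw [h4, one_pow] at hq
    exact h11 hq.symm
  · exfalso
    rw [hq] at h4
    exact h11 h4
  · exfalso
    have h5 : ((q : ℕ) : ZMod p) ^ 3 = -((q : ℕ) : ZMod p) := by
      calc ((q : ℕ) : ZMod p) ^ 3 = ((q : ℕ) : ZMod p) ^ 2 * ((q : ℕ) : ZMod p) := by ring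
        _ = _ := by rw [hq]; ring
    rw [h5] at h4
    have h6 : ((q : ℕ) : ZMod p) = -1 := by rw [← h4]; ring
    rw [h6] at hq
    have h7 : (-1 : ZMod p) ^ 2 = 1 := by ring
    rw [h7] at hq
    exact h11 hq.symm

/-- the main lemma -/
theorem lemZ {G : Type*} [Group G] [Finite G] {p q v : ℕ} [Fact p.Prime] (hp2 : p ≠ 2) (hq : 2 ≤ q) (hpq : p ∣ q ^ 2 + 1)
    (Q A : Subgroup G) (hQ2 : IsPGroup 2 Q) [IsMulCommutative A] (hA : ¬ IsCyclic A) (hAp : IsPGroup p A)
    (hAn : ∀ a ∈ A, ∀ u ∈ Q, a * u * a⁻¹ ∈ Q) (hv : Nat.card Q = q ^ v) (hv7 : v ≤ 7)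
    (hS : ∀ a ∈ A, ∀ b ∈ A, ∃ k, Nat.card ↥(Q ⊓ centralizer {a} ⊓ centralizer {b}) = q ^ k)
    (hN : ∀ a ∈ A, a ≠ 1 → ¬ Q ≤ centralizer {a}) : False := by
  have hpow : ∀ a ∈ A, ∃ m, a ^ p ^ m = 1 := by
    intro a ha
    obtain ⟨m, hm⟩ := hAp ⟨a, ha⟩
    exact ⟨m, congrArg Subtype.val hm⟩
  have hcomm : ∀ a ∈ A, ∀ b ∈ A, a * b = b * a := fun a ha b hb =>
    congrArg Subtype.val (mul_comm' (⟨a, ha⟩ : A) ⟨b, hb⟩)
  have hle : ∀ {x y : ℕ}, q ^ x ≤ q ^ y → x ≤ y := fun {x y} h => (Nat.pow_le_pow_iff_right (by omega)).1 h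
  have hS1 : ∀ a ∈ A, a ≠ 1 → ∃ k, Nat.card ↥(Q ⊓ centralizer {a}) = q ^ k ∧ k ≤ 3 := by
    intro a ha ha1
    obtain ⟨k, hk⟩ := hS a ha a ha
    rw [inf_assoc, inf_idem] at hk
    obtain ⟨m, hm⟩ := hpow a ha
    have h1 := fix_mod Q hm (hAn a ha)
    rw [hv, hk] at h1
    have h2 : k ≤ v := by
      apply hle
      rw [← hk, ← hv]
      exact Nat.card_le_card_of_injective (Subgroup.inclusion inf_le_left) (Subgroup.inclusion_injective _)
    have h3 := ord_four (Fact.out : p.Prime) hp2 hpq h2 h1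
    have h4 : k ≠ v := by
      intro h
      apply hN a ha ha1
      have h5 : Q ⊓ centralizer {a} = Q := by
        apply Subgroup.eq_of_le_of_card_ge inf_le_left
        rw [hk, hv, h]
      rw [← h5]; exact inf_le_right
    exact ⟨k, hk, by omega⟩
  have key : ∀ a ∈ A, a ≠ 1 → ∀ b ∈ A, Q ⊓ centralizer {a} ≤ centralizer {b} := by
    intro a ha ha1 b hb
    obtain ⟨k, hk, hk3⟩ := hS1 a ha ha1
    obtain ⟨c, hc⟩ := hS a ha b hb
    obtain ⟨m, hm⟩ := hpow b hb
    have h1 := fix_mod (Q ⊓ centralizer {a}) hm (by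
      intro u hu
      refine ⟨hAn b hb u hu.1, ?_⟩
      have h2 := mem_centralizer_singleton_iff.1 hu.2
      show b * u * b⁻¹ ∈ centralizer {a}
      rw [mem_centralizer_singleton_iff]
      have h3 := hcomm a ha b hb
      have h4 : a * b⁻¹ = b⁻¹ * a := by
        rw [eq_inv_mul_iff_mul_eq, ← mul_assoc, ← h3, mul_inv_cancel_right]
      calc b * u * b⁻¹ * a = b * u * (b⁻¹ * a) := by group
        _ = b * (u * a) * b⁻¹ := by rw [← h4]; group
        _ = b * (a * u) * b⁻¹ := by rw [h2]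
        _ = (b * a) * u * b⁻¹ := by group
        _ = _ := by rw [← h3]; group)
    rw [hk, hc] at h1
    have h2 : c ≤ k := by
      apply hle
      rw [← hk, ← hc]
      exact Nat.card_le_card_of_injective (Subgroup.inclusion inf_le_left) (Subgroup.inclusion_injective _)
    have h3 := ord_four (Fact.out : p.Prime) hp2 hpq h2 h1
    have h4 : c = k := by omega
    have h5 : Q ⊓ centralizer {a} ⊓ centralizer {b} = Q ⊓ centralizer {a} := by
      apply Subgroup.eq_of_le_of_card_ge inf_le_left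
      rw [hk, hc, h4]
    rw [← h5]; exact inf_le_right
  -- generation by centralizers
  have : Fact (Nat.Prime 2) := ⟨Nat.prime_two⟩
  have hnil : Group.IsNilpotent Q := hQ2.isNilpotent
  have hcop : (Nat.card A).Coprime (Nat.card Q) := by
    obtain ⟨s, hs⟩ := IsPGroup.iff_card.1 hAp
    obtain ⟨t, ht⟩ := IsPGroup.iff_card.1 hQ2
    rw [hs, ht]
    exact Nat.Coprime.pow _ _ ((Nat.coprime_primes Fact.out Nat.prime_two).2 hp2)
  have hgen := H91.genCent_eq_of_nilpotent A Q hA (by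
    intro a ha
    rw [mem_normalizer_iff]
    intro u
    constructor
    · exact hAn a ha u
    · intro h
      have := hAn a⁻¹ (inv_mem ha) _ h
      have e : a⁻¹ * (a * u * a⁻¹) * a⁻¹⁻¹ = u := by group
      rwa [e] at this) hcop
  -- a nontrivial element
  obtain ⟨b, hb, hb1⟩ : ∃ b ∈ A, b ≠ 1 := by
    by_contra h
    push Not at h
    apply hA
    have : A = ⊥ := by rw [eq_bot_iff]; intro x hx; exact mem_bot.2 (h x hx)
    rw [this]; infer_instance
  apply hN b hb hb1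
  rw [← hgen]
  exact iSup₂_le fun a ha => key a ha.1 ha.2 b hb

end Cfsg.Agent.MulF4
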