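import Cfsg.Agent.MulF4.Two

set_option autoImplicit false
set_option maxRecDepth 100000

/-!
The 2-part of the multiplier of the twisted groups of type F4.
-/

namespace Cfsg.Agent.MulF4

open Cfsg.Lie Cfsg.Agent.Chev Cfsg.Agent.ChevGrp Cfsg.Agent.ChevGrp.DData Cfsg.Agent.ChevWeyl Cfsg.Agent.ChevTw
  Cfsg.Agent.Tw3 Cfsg.Agent.ChevGrp.RGrp Cfsg.Agent.Tw4 Cfsg.Agent.AutTF4 Cfsg.Agent.AutChev
open Subgroup
open scoped commutatorElement

variable {K : Type*} [Field K] (Z : Sg K)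

section

variable {Γ : Type*} [Group Γ] {σ : Γ →* ↥(tF Z).G1} (hσ : Function.Surjective σ) (hc : σ.ker ≤ center Γ)
  [Fintype K] (h4 : 9 ≠ Fintype.card K) (h8 : 4 < Fintype.card K)

include hσ hc h4 h8

theorem spt_all (r : Fin 16) : ∃ N, Spt σ (rtw (tF Z)).H ((rtw (tF Z)).X r) N := by
  obtain ⟨u, hu, i, hi⟩ := S16.exists_conj_p r
  obtain ⟨g, hg, hga⟩ := RGrp.exists_act_of_mem (R := rtw (tF Z)) hu
  obtain ⟨γ, rfl⟩ := hσ g
  have hb : ∃ N, Spt σ (rtw (tF Z)).H ((rtw (tF Z)).X (S16.p i)) N := by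
    have h2 : i = 0 ∨ i = 1 := by
      have : ∀ j : Fin 2, j = 0 ∨ j = 1 := by decide
      exact this i
    rcases h2 with rfl | rfl
    · exact spt0 Z hσ hc h4 h8
    · exact spt7 Z hσ hc h4 h8
  obtain ⟨N, SN⟩ := hb
  have hm : ∀ y, y ∈ N.map (MulAut.conj γ).toMonoidHom ↔ γ⁻¹ * y * γ ∈ N := by
    intro y
    constructor
    · rintro ⟨z, hz, rfl⟩
      have : γ⁻¹ * (γ * z * γ⁻¹) * γ = z := by group
      show γ⁻¹ * (γ * z * γ⁻¹) * γ ∈ N
      rw [this]; exact hz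
    · intro h
      refine ⟨_, h, ?_⟩
      show γ * (γ⁻¹ * y * γ) * γ⁻¹ = y
      group
  refine ⟨N.map (MulAut.conj γ).toMonoidHom, fun y hy => ?_, fun x hx => ?_, fun y hy h1 => ?_, fun k hk y hy => ?_⟩
  · have h1 := SN.map _ ((hm y).1 hy)
    have h2 := hga.conj h1
    rw [hi] at h2
    have e : σ γ * σ (γ⁻¹ * y * γ) * (σ γ)⁻¹ = σ y := by
      rw [map_mul, map_mul, map_inv]; group
    rwa [e] at h2
  · rw [← hi] at hx
    have h1 := hga.conj' hx
    rw [perm_inv_apply] at h1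
    obtain ⟨y, hy, e⟩ := SN.sur _ h1
    refine ⟨γ * y * γ⁻¹, ⟨y, hy, rfl⟩, ?_⟩
    rw [map_mul, map_mul, map_inv, e]; group
  · have h2 := SN.inj _ ((hm y).1 hy) (by rw [map_mul, map_mul, map_inv, h1, mul_one, inv_mul_cancel])
    have h3 : y = γ * (γ⁻¹ * y * γ) * γ⁻¹ := by group
    rw [h3, h2, mul_one, mul_inv_cancel]
  · rw [hm] at hy ⊢
    have h1 : σ (γ⁻¹ * k * γ) ∈ (rtw (tF Z)).H := by
      rw [map_mul, map_mul, map_inv]
      exact RGrp.N_conj_H' hg hk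
    have h2 := SN.nrm _ h1 _ hy
    have e : γ⁻¹ * k * γ * (γ⁻¹ * y * γ) * (γ⁻¹ * k * γ)⁻¹ = γ⁻¹ * (k * y * k⁻¹) * γ := by group
    rwa [e] at h2

/-- the interval data -/
theorem exists_IData : ∃ D : IData σ 16 8, D.X = (rtw (tF Z)).X := by
  obtain ⟨x, hx⟩ := exists_ne (K := K) h8
  choose Y hY using spt_all Z hσ hc h4 h8
  choose s hs using hσ
  refine ⟨{ cen := hc
            X := (rtw (tF Z)).X
            Y := Y
            T := (rtw (tF Z)).H.comap σ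
            hT := fun h hh k _ y hy => (hY k).nrm h hh y hy
            sur := fun k _ y hy => (hY k).sur y hy
            map := fun k _ y hy => (hY k).map y hy
            inj := fun k _ y hy => (hY k).inj y hy
            comm := fun i j hij hj a ha b hb => comm16 (rtw (tF Z)) hij hj ha hb
            dis := fun i hi a ha h => dis16 (rtw (tF Z)) hi ha h
            w2 := fun i j hij hj => ?_ }, rfl⟩
  have hij' : (i : ℕ) < j := hij
  obtain ⟨h1, h2⟩ := tk_act Z hx (i := i) (j := j) (by omega) hj (ne_of_lt hij)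
  refine ⟨s (tk Z i x), by rw [mem_comap, hs]; exact tk_H Z _ _, fun y hy => ?_, fun y hy e => ?_⟩
  · have h3 : s (tk Z i x) * y * (s (tk Z i x))⁻¹ * y⁻¹ ∈ Y i :=
      mul_mem ((hY i).nrm _ (by rw [hs]; exact tk_H Z _ _) y hy) (inv_mem hy)
    have h4 := (hY i).inj _ h3 (by
      rw [map_mul, map_mul, map_mul, map_inv, map_inv, hs, h1 _ ((hY i).map y hy), mul_inv_cancel])
    exact mul_inv_eq_one.1 h4
  · apply (hY j).inj y hy
    apply h2 _ ((hY j).map y hy)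
    have h3 := congrArg σ e
    rwa [map_mul, map_mul, map_inv, hs] at h3

end

section

variable [Fintype K]

theorem card_p0' : Nat.card ((rtw (tF Z)).X (S16.p 0)) = Nat.card K := by
  rw [← card_tX0 Z]
  exact Nat.card_congr (Subgroup.subgroupOfEquivOfLe (TwData.X'_le_G1 _)).toEquiv

theorem card_H' : Nat.card (rtw (tF Z)).H = Nat.card Kˣ ^ 2 := by
  rw [← card_H1 Z]
  have h2 : (rtw (tF Z)).H = ((twF Z).tw.H).subgroupOf (twF Z).G1 := rfl
  rw [h2]
  exact Nat.card_congr (Subgroup.subgroupOfEquivOfLe inf_le_right).toEquiv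

theorem card_U' : Nat.card (rtw (tF Z)).U = Nat.card K ^ 12 := by
  rw [card_U16 (rtw (tF Z)) (card_p0' Z) (card_p1 (Z := Z))]; ring

theorem card_G1' : Nat.card ↥(tF Z).G1 = Nat.card K ^ 12 * (Nat.card Kˣ ^ 2 * ((1 + Nat.card K) * (1 + Nat.card K ^ 2) *
    (1 + Nat.card K ^ 3 + (Nat.card K ^ 3) ^ 2 + (Nat.card K ^ 3) ^ 3))) := by
  have h1 := card_Grp16 (rtw (tF Z)) (card_p0' Z) (card_p1 (Z := Z))
  rw [rtw_Grp, Subgroup.card_top, card_H'] at h1
  rw [h1]; ring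

theorem index_U' : (rtw (tF Z)).U.index = Nat.card Kˣ ^ 2 * ((1 + Nat.card K) * (1 + Nat.card K ^ 2) *
    (1 + Nat.card K ^ 3 + (Nat.card K ^ 3) ^ 2 + (Nat.card K ^ 3) ^ 3)) := by
  have h1 := Subgroup.card_mul_index (rtw (tF Z)).U
  rw [card_U', card_G1'] at h1
  exact Nat.eq_of_mul_eq_mul_left (pow_pos Nat.card_pos 12) h1

theorem index_odd {n : ℕ} (hn : 1 ≤ n) (hK : Fintype.card K = 2 ^ n) : ¬ 2 ∣ (rtw (tF Z)).U.index := by
  rw [index_U']
  have hq : Nat.card K = 2 ^ n := by rw [Nat.card_eq_fintype_card, hK]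
  have hu : Nat.card Kˣ = 2 ^ n - 1 := by
    rw [Nat.card_units, hq]
  rw [hu, hq]
  obtain ⟨k, rfl⟩ : ∃ k, n = k + 1 := ⟨n - 1, by omega⟩
  have h2 : 2 ^ (k + 1) = 2 * 2 ^ k := by rw [pow_succ]; ring
  have hpos : 1 ≤ 2 ^ k := Nat.one_le_two_pow
  obtain ⟨a, ha⟩ : ∃ a, 2 ^ (k + 1) = 2 * a := ⟨2 ^ k, h2⟩
  have ha1 : 1 ≤ a := by omega
  rw [ha]
  have o1 : ¬ 2 ∣ (2 * a - 1) ^ 2 := by
    intro h
    have := Nat.prime_two.dvd_of_dvd_pow h
    omega
  have o2 : ¬ 2 ∣ 1 + 2 * a := by omega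
  have o3 : ¬ 2 ∣ 1 + (2 * a) ^ 2 := by
    have : (2 * a) ^ 2 = 2 * (2 * a ^ 2) := by ring
    rw [this]; omega
  have o4 : ¬ 2 ∣ 1 + (2 * a) ^ 3 + ((2 * a) ^ 3) ^ 2 + ((2 * a) ^ 3) ^ 3 := by
    have : 1 + (2 * a) ^ 3 + ((2 * a) ^ 3) ^ 2 + ((2 * a) ^ 3) ^ 3 =
        1 + 2 * (4 * a ^ 3 + 32 * a ^ 6 + 256 * a ^ 9) := by ring
    rw [this]; omega
  intro h
  rcases (Nat.prime_two.dvd_mul).1 h with h | h
  · exact o1 h
  · rcases (Nat.prime_two.dvd_mul).1 h with h | h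
    · rcases (Nat.prime_two.dvd_mul).1 h with h | h
      · exact o2 h
      · exact o3 h
    · exact o4 h

/-- the 2-part of the multiplier -/
theorem two_part {Γ : Type*} [Group Γ] [Finite Γ] {σ : Γ →* ↥(tF Z).G1} (hst : Cfsg.IsStemExtension σ) {n : ℕ} (hn : 3 ≤ n)
    (hK : Fintype.card K = 2 ^ n) (hker : Nat.card σ.ker = 2) : False := by
  have hcard : 8 ≤ Fintype.card K := by
    rw [hK]
    calc 8 = 2 ^ 3 := by norm_num
      _ ≤ 2 ^ n := Nat.pow_le_pow_right (by norm_num) hn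
  have h9 : 9 ≠ Fintype.card K := by
    intro h
    rw [hK] at h
    have : 2 ∣ 9 := by rw [h]; exact dvd_pow_self 2 (by omega)
    norm_num at this
  obtain ⟨D, hD⟩ := exists_IData Z hst.1 hst.2.1 h9 (by omega)
  have hinj := D.inj_J 8 0 (by norm_num) (by norm_num)
  rw [zero_add] at hinj
  have hUJ : D.Jg 0 8 = (rtw (tF Z)).U := by
    unfold IData.Jg RGrp.U
    rw [hD]
    apply le_antisymm
    · exact gen_mono fun r hr => hr.2
    · exact gen_mono fun r hr => ⟨Nat.zero_le _, hr⟩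
  -- the Sylow subgroup
  have : Fact (Nat.Prime 2) := ⟨Nat.prime_two⟩
  have hpP : IsPGroup 2 ↥((rtw (tF Z)).U.comap σ) := by
    have h1 : IsPGroup 2 (rtw (tF Z)).U := by
      apply IsPGroup.of_card (n := n * 12)
      rw [card_U', Nat.card_eq_fintype_card, hK, ← pow_mul]
    have h2 : IsPGroup 2 σ.ker := IsPGroup.of_card (n := 1) (by rw [hker, pow_one])
    exact h1.comap_of_ker_isPGroup σ h2
  have hidx : ¬ 2 ∣ ((rtw (tF Z)).U.comap σ).index := by
    rw [Subgroup.index_comap_of_surjective _ hst.1]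
    exact index_odd Z (by omega) hK
  let P := hpP.toSylow hidx
  have hP : (P : Subgroup Γ) = (rtw (tF Z)).U.comap σ := rfl
  -- the commutator subgroup
  have hcomm : ∀ y ∈ (commutator ↥(P : Subgroup Γ)).map (P : Subgroup Γ).subtype, y ∈ D.J 0 8 := by
    have h1 : (commutator ↥(P : Subgroup Γ)).map (P : Subgroup Γ).subtype ≤ D.J 0 8 := by
      rw [commutator_def, Subgroup.map_commutator, Subgroup.commutator_le]
      have hdec : ∀ y ∈ (⊤ : Subgroup ↥(P : Subgroup Γ)).map (P : Subgroup Γ).subtype, ∃ z ∈ D.J 0 8, ∃ k ∈ center Γ, y = z * k := by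
        rintro _ ⟨y, -, rfl⟩
        have h2 : σ (y : Γ) ∈ (rtw (tF Z)).U := y.2
        rw [← hUJ] at h2
        obtain ⟨z, hz, e⟩ := D.J_sur (by norm_num) h2
        refine ⟨z, hz, z⁻¹ * y, hst.2.1 (by rw [MonoidHom.mem_ker, map_mul, map_inv, e, inv_mul_cancel]), ?_⟩
        show (y : Γ) = z * (z⁻¹ * y)
        group
      intro y hy y' hy'
      obtain ⟨z, hz, k, hk, rfl⟩ := hdec y hy
      obtain ⟨z', hz', k', hk', rfl⟩ := hdec y' hy'
      rw [comm_abs (mem_center_iff.1 hk _) (mem_center_iff.1 hk' _) (mem_center_iff.1 hk' _), commutatorElement_def]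
      exact mul_mem (mul_mem (mul_mem hz hz') (inv_mem hz)) (inv_mem hz')
    exact h1
  -- conclusion
  have hnt : Nontrivial σ.ker := by
    rw [← Finite.one_lt_card_iff_nontrivial, hker]; norm_num
  obtain ⟨⟨k, hk⟩, hk1⟩ := _root_.exists_ne (1 : σ.ker)
  have hkP : k ∈ (P : Subgroup Γ) := by
    rw [hP, mem_comap, (MonoidHom.mem_ker).1 hk]; exact one_mem _
  have h5 := Schur.inf_sylow_le_commutator σ.ker hst.2.1 hst.2.2 P hk hkP
  have h6 := hcomm k ⟨⟨k, hkP⟩, h5, rfl⟩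
  have h7 := hinj k h6 hk
  exact hk1 (Subtype.ext h7)

end

end Cfsg.Agent.MulF4
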