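import Cfsg.Agent.MulF4.Rel
import Cfsg.Agent.MulF4.TwoB
import Cfsg.Agent.Tw3.Torus

set_option autoImplicit false
set_option maxRecDepth 100000

/-!
The rank one subgroup of Suzuki type of the twisted groups of type F4.
-/

namespace Cfsg.Agent.MulF4

open Cfsg.Lie Cfsg.Agent.Chev Cfsg.Agent.ChevGrp Cfsg.Agent.ChevGrp.DData Cfsg.Agent.ChevWeyl Cfsg.Agent.ChevTw
  Cfsg.Agent.Tw3 Cfsg.Agent.ChevGrp.RGrp Cfsg.Agent.Tw4 Cfsg.Agent.AutTF4 Cfsg.Agent.AutChev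
open Subgroup

/-- the elements of a rank one subgroup -/
theorem Li_cases {l n : ℕ} {S : WSys l n} {G : Type*} [Group G] (R : RGrp S G) (j : Fin l) (H0 : Subgroup G)
    (hH0 : H0 ≤ R.H) (hn : ∀ h ∈ H0, R.nn j * h * (R.nn j)⁻¹ ∈ H0) (hsq : R.nn j * R.nn j ∈ H0)
    (hr1 : ∀ y ∈ R.X (S.neg (S.p j)), y ≠ 1 → ∃ a ∈ R.X (S.p j), ∃ h ∈ H0, ∃ b ∈ R.X (S.p j),
      y = a * R.nn j * h * b) : ∀ y ∈ R.Li j, ((∃ a ∈ R.X (S.p j), ∃ h ∈ H0, y = a * h) ∨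
      ∃ a ∈ R.X (S.p j), ∃ h ∈ H0, ∃ b ∈ R.X (S.p j), y = a * R.nn j * h * b) := by
  have hX : ∀ h ∈ H0, ∀ x ∈ R.X (S.p j), h * x * h⁻¹ ∈ R.X (S.p j) := fun h hh x hx => R.H_X h (hH0 hh) _ x hx
  have hX' : ∀ h ∈ H0, ∀ x ∈ R.X (S.p j), h⁻¹ * x * h ∈ R.X (S.p j) := fun h hh x hx => by
    have := hX h⁻¹ (inv_mem hh) x hx
    rwa [inv_inv] at this
  have hn' : ∀ h ∈ H0, (R.nn j)⁻¹ * h * R.nn j ∈ H0 := by
    intro h hh
    have h1 := mul_mem (mul_mem (inv_mem hsq) (hn h hh)) hsq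
    have e : (R.nn j * R.nn j)⁻¹ * (R.nn j * h * (R.nn j)⁻¹) * (R.nn j * R.nn j) = (R.nn j)⁻¹ * h * R.nn j := by group
    rwa [e] at h1
  obtain ⟨M, hM⟩ : ∃ M : G → Prop, ∀ y, M y ↔ ((∃ a ∈ R.X (S.p j), ∃ h ∈ H0, y = a * h) ∨
      ∃ a ∈ R.X (S.p j), ∃ h ∈ H0, ∃ b ∈ R.X (S.p j), y = a * R.nn j * h * b) := ⟨_, fun _ => Iff.rfl⟩
  have hMX : ∀ x ∈ R.X (S.p j), ∀ y, M y → M (x * y) := by
    intro x hx y hy
    rcases (hM y).1 hy with ⟨a, ha, h, hh, rfl⟩ | ⟨a, ha, h, hh, b, hb, rfl⟩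
    · exact (hM _).2 (Or.inl ⟨x * a, mul_mem hx ha, h, hh, by group⟩)
    · exact (hM _).2 (Or.inr ⟨x * a, mul_mem hx ha, h, hh, b, hb, by group⟩)
  have hMH : ∀ x ∈ H0, ∀ y, M y → M (x * y) := by
    intro x hx y hy
    rcases (hM y).1 hy with ⟨a, ha, h, hh, rfl⟩ | ⟨a, ha, h, hh, b, hb, rfl⟩
    · exact (hM _).2 (Or.inl ⟨x * a * x⁻¹, hX x hx a ha, x * h, mul_mem hx hh, by group⟩)
    · exact (hM _).2 (Or.inr ⟨x * a * x⁻¹, hX x hx a ha, (R.nn j)⁻¹ * x * R.nn j * h,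
        mul_mem (hn' x hx) hh, b, hb, by group⟩)
  have hMn : ∀ y, M y → M (R.nn j * y) := by
    intro y hy
    rcases (hM y).1 hy with ⟨a, ha, h, hh, rfl⟩ | ⟨a, ha, h, hh, b, hb, rfl⟩
    · exact (hM _).2 (Or.inr ⟨1, one_mem _, h, hh, h⁻¹ * a * h, hX' h hh a ha, by group⟩)
    · by_cases ha1 : a = 1
      · subst ha1
        refine (hM _).2 (Or.inl ⟨(R.nn j * R.nn j * h) * b * (R.nn j * R.nn j * h)⁻¹,
          hX _ (mul_mem hsq hh) b hb, R.nn j * R.nn j * h, mul_mem hsq hh, by group⟩)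
      · have h1 : R.nn j * a * (R.nn j)⁻¹ ∈ R.X (S.neg (S.p j)) := by
          have := R.nn_X j _ a ha
          rwa [S.w_p] at this
        have h2 : R.nn j * a * (R.nn j)⁻¹ ≠ 1 := by
          intro h
          apply ha1
          have : a = (R.nn j)⁻¹ * (R.nn j * a * (R.nn j)⁻¹) * R.nn j := by group
          rw [this, h]; group
        obtain ⟨a', ha', h', hh', b', hb', e⟩ := hr1 _ h1 h2
        refine (hM _).2 (Or.inr ⟨a', ha', h' * (R.nn j * R.nn j * h), mul_mem hh' (mul_mem hsq hh),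
          (R.nn j * R.nn j * h)⁻¹ * b' * (R.nn j * R.nn j * h) * b,
          mul_mem (hX' _ (mul_mem hsq hh) b' hb') hb, ?_⟩)
        have e1 : R.nn j * (a * R.nn j * h * b) = (R.nn j * a * (R.nn j)⁻¹) * (R.nn j * R.nn j * h) * b := by group
        rw [e1, e]; group
  have hle : R.Li j ≤ Subgroup.closure ((R.X (S.p j) : Set G) ∪ {R.nn j}) := by
    refine sup_le ?_ ?_
    · intro x hx
      exact Subgroup.subset_closure (Or.inl hx)
    · intro x hx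
      have h1 : (R.nn j)⁻¹ * x * R.nn j ∈ R.X (S.p j) := by
        have := (act_nn (R := R) j).conj' hx
        rwa [S.w_inv, S.w_neg, S.w_p, S.neg_neg] at this
      have e : x = R.nn j * ((R.nn j)⁻¹ * x * R.nn j) * (R.nn j)⁻¹ := by group
      rw [e]
      have h2 : R.nn j ∈ Subgroup.closure ((R.X (S.p j) : Set G) ∪ {R.nn j}) :=
        Subgroup.subset_closure (Or.inr rfl)
      exact mul_mem (mul_mem h2 (Subgroup.subset_closure (Or.inl h1))) (inv_mem h2)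
  have hall : ∀ g ∈ Subgroup.closure ((R.X (S.p j) : Set G) ∪ {R.nn j}), M g := by
    intro g hg
    induction hg using Subgroup.closure_induction_left with
    | one => exact (hM _).2 (Or.inl ⟨1, one_mem _, 1, one_mem _, by group⟩)
    | mul_left x hx y hy ih =>
      rcases hx with hx | hx
      · exact hMX x hx y ih
      · rw [Set.mem_singleton_iff] at hx
        subst hx
        exact hMn y ih
    | inv_mul_cancel x hx y hy ih =>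
      rcases hx with hx | hx
      · exact hMX x⁻¹ (inv_mem hx) y ih
      · rw [Set.mem_singleton_iff] at hx
        subst hx
        have e : (R.nn j)⁻¹ * y = R.nn j * ((R.nn j * R.nn j)⁻¹ * y) := by group
        rw [e]
        exact hMn _ (hMH _ (inv_mem hsq) y ih)
  exact fun y hy => (hM y).1 (hall y (hle hy))

variable {K : Type*} [Field K] (Z : Sg K)

theorem p1_eq : S16.p 1 = 7 := by decide +kernel
theorem np1_eq : S16.neg (S16.p 1) = 15 := by decide +kernel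

theorem X7_le : (rtw (tF Z)).X 7 ≤ (rtw (tF Z)).Li 1 := by
  rw [← p1_eq]; exact le_sup_left

theorem X15_le : (rtw (tF Z)).X 15 ≤ (rtw (tF Z)).Li 1 := by
  rw [← np1_eq]; exact le_sup_right

theorem Li1_X3 {y x : ↥(tF Z).G1} (hy : y ∈ (rtw (tF Z)).Li 1) (hx : x ∈ (rtw (tF Z)).X 3) : y * x = x * y := by
  have h : (rtw (tF Z)).Li 1 ≤ centralizer {x} := by
    refine sup_le ?_ ?_
    · intro g hg
      rw [mem_centralizer_singleton_iff]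
      rw [p1_eq] at hg
      exact (comm_cls Z cmC37.1 hx hg).symm
    · intro g hg
      rw [mem_centralizer_singleton_iff]
      rw [np1_eq] at hg
      exact (comm_cls Z cmC37.2.1 hx hg).symm
  exact mem_centralizer_singleton_iff.1 (h hy)

theorem nn1_mem : (rtw (tF Z)).nn 1 ∈ (rtw (tF Z)).Li 1 := by
  have h1 : fp Z 0 1 ∈ (rtw (tF Z)).Li 1 := X7_le Z ((mem_p1 Z _).2 ⟨0, 1, rfl⟩)
  have h2 : fn Z 0 1 ∈ (rtw (tF Z)).Li 1 := by
    apply Subgroup.mem_sup_right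
    exact (mem_n1 Z _).2 ⟨0, 1, rfl⟩
  rw [nn1_eq]
  exact mul_mem (mul_mem (mul_mem (mul_mem h1 h2) h1) h2) h1

/-- the torus of the rank one subgroup -/
theorem H1_form [Finite K] {h : ↥(tF Z).G1} (hh : h ∈ (rtw (tF Z)).H ⊓ (rtw (tF Z)).Li 1) : ∃ b, h = tt Z 1 b := by
  obtain ⟨a, b, rfl⟩ := exists_tt Z hh.1
  have h1 : chv Z 3 a b = 1 := by
    by_contra h
    apply (rtw (tF Z)).X_ne_bot 3
    rw [eq_bot_iff]
    intro x hx
    rw [mem_bot]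
    apply (actOn_all Z 3 (by decide) a b).2 h x hx
    rw [Li1_X3 Z hh.2 hx, mul_inv_cancel_right]
  have h2 : pw Z a ⟨-1, 1⟩ = 1 := by
    have h3 : chv Z 3 a b = pw Z a ⟨-1, 1⟩ * pw Z b 0 := rfl
    rw [pw_zero, mul_one] at h3
    rw [← h3]; exact h1
  have h3 : a = 1 := pw_ne Z (z := ⟨-1, 1⟩) (k := 0) (Or.inr (by norm_num)) h2
  exact ⟨b, by rw [h3]⟩

/-- the one-parameter torus -/
noncomputable def tb : Kˣ →* ↥(tF Z).G1 := MonoidHom.mk' (fun b => tt Z 1 b) (fun a b => by rw [tt_mul, one_mul])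

theorem tb_inj : Function.Injective (tb Z) := by
  intro b b' e
  exact (tor_inj Z (congrArg Subtype.val e)).2

theorem H1_le [Finite K] : (rtw (tF Z)).H ⊓ (rtw (tF Z)).Li 1 ≤ (tb Z).range := by
  intro h hh
  obtain ⟨b, rfl⟩ := H1_form Z hh
  exact ⟨b, rfl⟩

theorem H1_dvd [Finite K] : Nat.card ↥((rtw (tF Z)).H ⊓ (rtw (tF Z)).Li 1) ∣ Nat.card K - 1 := by
  have h1 := Subgroup.card_dvd_of_le (H1_le Z)
  have h2 : Nat.card (tb Z).range = Nat.card Kˣ := Nat.card_congr (MonoidHom.ofInjective (tb_inj Z)).toEquiv.symm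
  rw [h2] at h1
  rwa [Nat.card_units] at h1

theorem H1_cyclic [Finite K] : IsCyclic ↥((rtw (tF Z)).H ⊓ (rtw (tF Z)).Li 1) := by
  have h1 : IsCyclic (tb Z).range := isCyclic_of_surjective (tb Z).rangeRestrict (tb Z).rangeRestrict_surjective
  exact isCyclic_of_injective (Subgroup.inclusion (H1_le Z)) (Subgroup.inclusion_injective _)

/-- the elements of the rank one subgroup -/
theorem L1_cases {y : ↥(tF Z).G1} (hy : y ∈ (rtw (tF Z)).Li 1) :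
    (∃ a ∈ (rtw (tF Z)).X 7, ∃ h ∈ (rtw (tF Z)).H ⊓ (rtw (tF Z)).Li 1, y = a * h) ∨
      ∃ a ∈ (rtw (tF Z)).X 7, ∃ h ∈ (rtw (tF Z)).H ⊓ (rtw (tF Z)).Li 1, ∃ b ∈ (rtw (tF Z)).X 7,
        y = a * (rtw (tF Z)).nn 1 * h * b := by
  have h1 := Li_cases (rtw (tF Z)) 1 ((rtw (tF Z)).H ⊓ (rtw (tF Z)).Li 1) inf_le_left (by
    intro h hh
    exact mem_inf.2 ⟨(rtw (tF Z)).nn_H 1 h hh.1, mul_mem (mul_mem (nn1_mem Z) hh.2) (inv_mem (nn1_mem Z))⟩)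
    (mem_inf.2 ⟨(rtw (tF Z)).nn_sq 1, mul_mem (nn1_mem Z) (nn1_mem Z)⟩) (by
    intro y hy hy1
    obtain ⟨a, ha, h, hh, b, hb, e⟩ := (rtw (tF Z)).rank1 1 y hy hy1
    refine ⟨a, ha, h, mem_inf.2 ⟨hh, ?_⟩, b, hb, e⟩
    have ha' : a ∈ (rtw (tF Z)).Li 1 := mem_sup_left ha
    have hb' : b ∈ (rtw (tF Z)).Li 1 := mem_sup_left hb
    have hy' : y ∈ (rtw (tF Z)).Li 1 := mem_sup_right hy
    have e1 : h = (a * (rtw (tF Z)).nn 1)⁻¹ * y * b⁻¹ := by rw [e]; group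
    rw [e1]
    exact mul_mem (mul_mem (inv_mem (mul_mem ha' (nn1_mem Z))) hy') (inv_mem hb')) y hy
  rwa [p1_eq] at h1

theorem n1_notB : (rtw (tF Z)).nn 1 ∉ (rtw (tF Z)).B := by
  intro h
  have h1 := (rtw (tF Z)).B_inf_N h ((rtw (tF Z)).nn_mem_N 1)
  have h2 := (act_nn (R := rtw (tF Z)) 1).unique (act_H h1)
  have h3 : S16.w 1 7 = 15 := by decide +kernel
  rw [h2] at h3
  exact absurd h3 (by decide)

theorem card_X7 [Finite K] : Nat.card ((rtw (tF Z)).X 7) = Nat.card K ^ 2 := by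
  rw [← card_p1 (Z := Z), p1_eq]

/-- the order of the rank one subgroup -/
theorem card_L1 [Finite K] [Finite ↥(tF Z).G1] : Nat.card ((rtw (tF Z)).Li 1) =
    Nat.card ↥((rtw (tF Z)).H ⊓ (rtw (tF Z)).Li 1) * (Nat.card K ^ 2 * (1 + Nat.card K ^ 2)) := by
  set R := rtw (tF Z) with hR
  have hX : ∀ a : R.X 7, (a : ↥(tF Z).G1) ∈ R.Li 1 := fun a => X7_le Z a.2
  have hH : ∀ h : ↥(R.H ⊓ R.Li 1), (h : ↥(tF Z).G1) ∈ R.Li 1 := fun h => h.2.2
  let f : (↥(R.X 7) × ↥(R.H ⊓ R.Li 1)) ⊕ (↥(R.X 7) × ↥(R.H ⊓ R.Li 1) × ↥(R.X 7)) → ↥(R.Li 1) := fun s =>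
    match s with
    | Sum.inl p => ⟨(p.1 : ↥(tF Z).G1) * p.2, mul_mem (hX _) (hH _)⟩
    | Sum.inr p => ⟨(p.1 : ↥(tF Z).G1) * R.nn 1 * p.2.1 * p.2.2, mul_mem (mul_mem (mul_mem (hX _) (nn1_mem Z)) (hH _)) (hX _)⟩
  have hU : ∀ a : R.X 7, (a : ↥(tF Z).G1) ∈ R.U := fun a => R.X_le_U (show pos16 7 by decide +kernel) a.2
  have key : ∀ (a a' : R.X 7) (h h' : ↥(R.H ⊓ R.Li 1)), (a : ↥(tF Z).G1) * h = a' * h' → a = a' ∧ h = h' := by
    intro a a' h h' e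
    have h1 : ((a' : ↥(tF Z).G1)⁻¹ * a) = h' * (h : ↥(tF Z).G1)⁻¹ := by
      rw [eq_mul_inv_iff_mul_eq, mul_assoc, e, inv_mul_cancel_left]
    have h2 : ((a' : ↥(tF Z).G1)⁻¹ * a) = 1 := by
      apply R.UH _ (mul_mem (inv_mem (hU a')) (hU a))
      rw [h1]; exact mul_mem h'.2.1 (inv_mem h.2.1)
    have h3 : a = a' := Subtype.ext (inv_mul_eq_one.1 h2).symm
    subst h3
    exact ⟨rfl, Subtype.ext (mul_left_cancel e)⟩
  have hinj : Function.Injective f := by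
    have hcross : ∀ (a a' b' : R.X 7) (h h' : ↥(R.H ⊓ R.Li 1)), (a : ↥(tF Z).G1) * h ≠ a' * R.nn 1 * h' * b' := by
      intro a a' b' h h' e
      apply n1_notB Z
      have e1 : R.nn 1 = (a' : ↥(tF Z).G1)⁻¹ * (a * h) * (h' * b' : ↥(tF Z).G1)⁻¹ := by rw [e]; group
      rw [← hR, e1]
      exact mul_mem (mul_mem (inv_mem (R.U_le_B (hU _))) (mul_mem (R.U_le_B (hU _)) (R.H_le_B h.2.1)))
        (inv_mem (mul_mem (R.H_le_B h'.2.1) (R.U_le_B (hU _))))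
    rintro (⟨a, h⟩ | ⟨a, h, b⟩) (⟨a', h'⟩ | ⟨a', h', b'⟩) e
    · obtain ⟨h1, h2⟩ := key a a' h h' (congrArg Subtype.val e)
      rw [h1, h2]
    · exact absurd (congrArg Subtype.val e) (hcross a a' b' h h')
    · exact absurd (congrArg Subtype.val e).symm (hcross a' a b h' h)
    · have e1 : (a : ↥(tF Z).G1) * R.nn 1 * h * b = a' * R.nn 1 * h' * b' := congrArg Subtype.val e
      have hb : ∀ b : R.X 7, (b : ↥(tF Z).G1) ∈ R.Um (S16.w 1) := fun b =>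
        mem_gen (show pos16 7 ∧ ¬ pos16 (w16 1 7) by decide +kernel) b.2
      have hc : ∀ h : ↥(R.H ⊓ R.Li 1), R.nn 1 * (h : ↥(tF Z).G1) * (R.nn 1)⁻¹ ∈ R.H ⊓ R.Li 1 := fun h =>
        mem_inf.2 ⟨R.nn_H 1 h h.2.1, mul_mem (mul_mem (nn1_mem Z) h.2.2) (inv_mem (nn1_mem Z))⟩
      obtain ⟨h1, h2⟩ := bnu_unique (act_nn (R := R) 1) (b := a * (R.nn 1 * (h : ↥(tF Z).G1) * (R.nn 1)⁻¹))
        (b' := a' * (R.nn 1 * (h' : ↥(tF Z).G1) * (R.nn 1)⁻¹)) (mul_mem (R.U_le_B (hU _)) (R.H_le_B (hc h).1))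
        (mul_mem (R.U_le_B (hU _)) (R.H_le_B (hc h').1)) (hb b) (hb b') (by
          have e2 : ∀ x y z : ↥(tF Z).G1, x * (R.nn 1 * y * (R.nn 1)⁻¹) * R.nn 1 * z = x * R.nn 1 * y * z := by
            intro x y z; group
          rw [e2, e2]; exact e1)
      obtain ⟨h3, h4⟩ := key a a' ⟨_, hc h⟩ ⟨_, hc h'⟩ h1
      have h5 : h = h' := Subtype.ext (mul_left_cancel (mul_right_cancel (congrArg Subtype.val h4)))
      rw [h3, h5, Subtype.ext h2]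
  have hsur : Function.Surjective f := by
    rintro ⟨y, hy⟩
    rcases L1_cases Z hy with ⟨a, ha, h, hh, e⟩ | ⟨a, ha, h, hh, b, hb, e⟩
    · exact ⟨Sum.inl (⟨a, ha⟩, ⟨h, hh⟩), Subtype.ext e.symm⟩
    · exact ⟨Sum.inr (⟨a, ha⟩, ⟨h, hh⟩, ⟨b, hb⟩), Subtype.ext e.symm⟩
  rw [← Nat.card_congr (Equiv.ofBijective f ⟨hinj, hsur⟩), Nat.card_sum, Nat.card_prod, Nat.card_prod, Nat.card_prod, hR, card_X7]
  ring

end Cfsg.Agent.MulF4
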