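import Cfsg.Agent.MulF4.TwoB
import Cfsg.Agent.MulTw.D4X

set_option autoImplicit false
set_option maxRecDepth 100000

/-!
The odd part of the multiplier of the twisted groups of type F4.
-/

namespace Cfsg.Agent.MulF4

open Cfsg.Lie Cfsg.Agent.Chev Cfsg.Agent.ChevGrp Cfsg.Agent.ChevGrp.DData Cfsg.Agent.ChevWeyl Cfsg.Agent.ChevTw
  Cfsg.Agent.Tw3 Cfsg.Agent.ChevGrp.RGrp Cfsg.Agent.Tw4 Cfsg.Agent.AutTF4 Cfsg.Agent.AutChev Cfsg.Agent.MulTw
open Subgroup
open scoped commutatorElement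

variable {K : Type*} [Field K] (Z : Sg K)

include Z in
theorem neg_eq (x : K) : -x = x := by
  have h := Z.two
  linear_combination (-x) * h

/-- the rank one relations -/
theorem r1_S0 : Mult.R1 (S0 Z).A.x (S0 Z).A.y where
  X_add := (S0 Z).A.x_add
  Y_add := (S0 Z).A.y_add
  nX t v ht := by
    have h := (S0 Z).A.n_x t v ht
    rw [mul_inv_eq_iff_eq_mul] at h
    rw [h]
    congr 2
    ring
  nY t v ht := by
    have h := (S0 Z).A.n_y t v ht
    rw [mul_inv_eq_iff_eq_mul] at h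
    rw [h]
    congr 2
    ring

theorem nn0_eq : (rtw (tF Z)).nn 0 = (S0 Z).A.x 1 * (S0 Z).A.y (-1⁻¹) * (S0 Z).A.x 1 := by
  rw [neg_eq Z, inv_one, S0_x, S0_y]
  exact Subtype.ext (nd0_eq Z)

theorem h_mem {t : K} (ht : t ≠ 0) : (r1_S0 Z).h t ∈ (rtw (tF Z)).H := by
  have h1 := hh0_H Z (Units.mk0 t ht)
  rw [hh0_eq] at h1
  have h2 : (r1_S0 Z).h t = (ep Z (Units.mk0 t ht : Kˣ) * en Z ((Units.mk0 t ht : Kˣ) : K)⁻¹ * ep Z (Units.mk0 t ht : Kˣ)) *
      (ep Z 1 * en Z 1 * ep Z 1) := by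
    show ((S0 Z).A.x t * (S0 Z).A.y (-t⁻¹) * (S0 Z).A.x t) * ((S0 Z).A.x (-1) * (S0 Z).A.y (-(-1)⁻¹) * (S0 Z).A.x (-1)) = _
    rw [neg_eq Z t⁻¹, neg_eq Z (1 : K), inv_one, neg_eq Z (1 : K), S0_x, S0_y, S0_x, S0_y, Units.val_mk0]
  rw [h2]; exact h1

section

variable [Fintype K] {Γ : Type*} [Group Γ] [Finite Γ] {σ : Γ →* ↥(tF Z).G1} (hst : Cfsg.IsStemExtension σ)

include hst in
/-- the odd part of the multiplier -/
theorem odd_part {n : ℕ} (hn : 1 ≤ n) (hK : Fintype.card K = 2 ^ n)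
    (hperf : commutator ↥(tF Z).G1 = ⊤) {p : ℕ} (hp : p.Prime) (hp2 : p ≠ 2) (hker : Nat.card σ.ker = p)
    (hcyc : ∀ P : Subgroup ↥((rtw (tF Z)).Li 1), IsPGroup p P → IsCyclic P)
    (hH1 : Nat.card ↥((rtw (tF Z)).H ⊓ (rtw (tF Z)).Li 1) ≤ Nat.card K - 1) : False := by
  have : Fact p.Prime := ⟨hp⟩
  have : Fact (Nat.Prime 2) := ⟨Nat.prime_two⟩
  set R := rtw (tF Z) with hR
  have E : PExt 2 σ :=
    { prime := Nat.prime_two
      central := hst.2.1
      cop := by rw [hker]; exact (Nat.coprime_primes Nat.prime_two hp).2 (Ne.symm hp2) }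
  have pU : IsPGroup 2 R.U := by
    apply IsPGroup.of_card (n := n * 12)
    rw [card_U', Nat.card_eq_fintype_card, hK, ← pow_mul]
  have pV : IsPGroup 2 R.V := pV_of_pU pU
  have hr : ∀ r, R.X r ≤ σ.range := fun r => by rw [MonoidHom.range_eq_top.2 hst.1]; exact le_top
  have hpX : ∀ r, IsPGroup 2 (R.X r) := by
    intro r
    by_cases h : S16.Pos r
    · exact pU.to_le (R.X_le_U h)
    · exact pV.to_le (R.X_le_V h)
  have ls : ∀ {r : Fin 16} {g : ↥(tF Z).G1}, g ∈ R.X r → PE 2 (plift 2 σ g) ∧ σ (plift 2 σ g) = g := fun {r} {g} hg =>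
    plift_spec E (pe_of_mem (hpX r) hg) (hr r hg)
  have mX : ∀ t, (S0 Z).A.x t ∈ R.X (S16.p 0) := fun t => ((S0 Z).mem_p _).2 ⟨t, rfl⟩
  have mY : ∀ t, (S0 Z).A.y t ∈ R.X (S16.neg (S16.p 0)) := fun t => ((S0 Z).mem_n _).2 ⟨t, rfl⟩
  have mF : ∀ t u, fp Z t u ∈ R.X (S16.p 1) := fun t u => (mem_p1 Z _).2 ⟨t, u, rfl⟩
  have mN : ∀ t u, fn Z t u ∈ R.X (S16.neg (S16.p 1)) := fun t u => (mem_n1 Z _).2 ⟨t, u, rfl⟩
  let nh : Fin 2 → Γ := fun j => match j with
    | 0 => plift 2 σ ((S0 Z).A.x 1) * plift 2 σ ((S0 Z).A.y (-1⁻¹)) * plift 2 σ ((S0 Z).A.x 1)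
    | 1 => plift 2 σ (fp Z 0 1) * plift 2 σ (fn Z 0 1) * plift 2 σ (fp Z 0 1) * plift 2 σ (fn Z 0 1) * plift 2 σ (fp Z 0 1)
  have j_cases : ∀ j : Fin 2, j = 0 ∨ j = 1 := by decide
  let D : LData E R :=
    { pU := pU
      pV := pV
      range := hr
      nh := nh
      ρ_nh := fun j => by
        rcases j_cases j with rfl | rfl
        · show σ (plift 2 σ ((S0 Z).A.x 1) * plift 2 σ ((S0 Z).A.y (-1⁻¹)) * plift 2 σ ((S0 Z).A.x 1)) = R.nn 0
          rw [map_mul, map_mul, (ls (mX 1)).2, (ls (mY _)).2, nn0_eq]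
        · show σ (plift 2 σ (fp Z 0 1) * plift 2 σ (fn Z 0 1) * plift 2 σ (fp Z 0 1) * plift 2 σ (fn Z 0 1) *
            plift 2 σ (fp Z 0 1)) = R.nn 1
          rw [map_mul, map_mul, map_mul, map_mul, (ls (mF 0 1)).2, (ls (mN 0 1)).2, nn1_eq] }
  have lm : ∀ {r : Fin 16} {g : ↥(tF Z).G1}, g ∈ R.X r → plift 2 σ g ∈ D.RL.X r := fun {r} {g} hg =>
    D.mem.2 ⟨(ls hg).1, by rw [(ls hg).2]; exact hg⟩
  have hnn : ∀ i, D.nh i ∈ D.RL.Li i := by
    intro j
    rcases j_cases j with rfl | rfl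
    · exact mul_mem (mul_mem (mem_sup_left (lm (mX _))) (mem_sup_right (lm (mY _)))) (mem_sup_left (lm (mX _)))
    · exact mul_mem (mul_mem (mul_mem (mul_mem (mem_sup_left (lm (mF _ _))) (mem_sup_right (lm (mN _ _))))
        (mem_sup_left (lm (mF _ _)))) (mem_sup_right (lm (mN _ _)))) (mem_sup_left (lm (mF _ _)))
  have hperfΓ := stem_perfect hst hperf
  have hgen : σ.range ≤ gen R.X (fun _ => True) := by
    intro x _
    have h1 : x ∈ R.Grp := by rw [hR, rtw_Grp]; exact mem_top _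
    -- the root subgroups generate
    have h2 : ∀ i, R.nn i ∈ gen R.X (fun _ => True) := by
      intro j
      rcases j_cases j with rfl | rfl
      · rw [hR, nn0_eq]
        exact mul_mem (mul_mem (mem_gen trivial (mX _)) (mem_gen trivial (mY _))) (mem_gen trivial (mX _))
      · rw [hR, nn1_eq]
        exact mul_mem (mul_mem (mul_mem (mul_mem (mem_gen trivial (mF _ _)) (mem_gen trivial (mN _ _)))
          (mem_gen trivial (mF _ _))) (mem_gen trivial (mN _ _))) (mem_gen trivial (mF _ _))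
    have h3 : (tF Z).G1 ≤ (gen R.X (fun _ => True)).map (tF Z).G1.subtype := by
      refine (G1_eq_closure (tF Z)).le.trans ?_
      rw [Subgroup.closure_le]
      intro y hy
      obtain ⟨j, hj⟩ := Set.mem_iUnion.1 hy
      rcases hj with hj | hj
      · exact ⟨⟨y, TwData.X'_le_G1 _ hj⟩, mem_gen (r := S16.p j) trivial hj, rfl⟩
      · exact ⟨⟨y, TwData.X'_le_G1 _ hj⟩, mem_gen (r := S16.neg (S16.p j)) trivial hj, rfl⟩
    obtain ⟨y, hy, e⟩ := h3 x.2
    rwa [← Subtype.ext e]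
  have key := D.card_le hnn hperfΓ hgen (by rw [MonoidHom.range_eq_top.2 hst.1]; exact le_top)
  -- the first factor
  have hcx : ∀ r, IsPGroup 2 (R.X r) := hpX
  have hR1 := r1_lift E (r1_S0 Z) (fun t => hr _ (mX t)) (fun t => hr _ (mY t)) (hpX _) (hpX _) mX mY
  have b0 : Nat.card ↥(D.RL.H ⊓ D.RL.Li 0) ≤ Fintype.card K - 1 := by
    refine card_rank_one D.RL 0 hR1 ?_ ?_ rfl ?_
    · intro g
      rw [D.RL_X, D.mem]
      constructor
      · rintro ⟨h2, h3⟩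
        obtain ⟨t, ht⟩ := ((S0 Z).mem_p _).1 h3
        exact ⟨t, by show plift 2 σ ((S0 Z).A.x t) = g; rw [← ht]; exact plift_eq E h2⟩
      · rintro ⟨t, rfl⟩
        exact ⟨(ls (mX t)).1, by rw [(ls (mX t)).2]; exact mX t⟩
    · intro g
      rw [D.RL_X, D.mem]
      constructor
      · rintro ⟨h2, h3⟩
        obtain ⟨t, ht⟩ := ((S0 Z).mem_n _).1 h3
        exact ⟨t, by show plift 2 σ ((S0 Z).A.y t) = g; rw [← ht]; exact plift_eq E h2⟩
      · rintro ⟨t, rfl⟩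
        exact ⟨(ls (mY t)).1, by rw [(ls (mY t)).2]; exact mY t⟩
    · intro t ht
      rw [D.RL_H, mem_comap]
      have h2 : σ (hR1.h t) = (r1_S0 Z).h t := by
        unfold Mult.R1.h Mult.R1.n
        simp only [map_mul, (ls (mX _)).2, (ls (mY _)).2]
      rw [h2]
      exact h_mem Z ht
  -- the second factor
  have hLmap : ∀ y ∈ D.RL.Li 1, σ y ∈ R.Li 1 := by
    have h1 : D.RL.Li 1 ≤ (R.Li 1).comap σ := by
      refine sup_le ?_ ?_
      · intro y hy
        exact mem_sup_left (D.mem.1 hy).2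
      · intro y hy
        exact mem_sup_right (D.mem.1 hy).2
    exact h1
  have hLsur : ∀ g ∈ R.Li 1, ∃ y ∈ D.RL.Li 1, σ y = g := by
    have h1 : R.Li 1 ≤ (D.RL.Li 1).map σ := by
      refine sup_le ?_ ?_
      · intro g hg
        exact ⟨_, mem_sup_left (lm hg), (ls hg).2⟩
      · intro g hg
        exact ⟨_, mem_sup_right (lm hg), (ls hg).2⟩
    exact h1
  let τ : ↥(D.RL.Li 1) →* ↥(R.Li 1) := (σ.comp (D.RL.Li 1).subtype).codRestrict (R.Li 1) (fun y => hLmap y y.2)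
  have hτ : Function.Surjective τ := by
    rintro ⟨g, hg⟩
    obtain ⟨y, hy, rfl⟩ := hLsur g hg
    exact ⟨⟨y, hy⟩, rfl⟩
  have hτk : ∀ y : ↥(D.RL.Li 1), y ∈ τ.ker ↔ σ (y : Γ) = 1 := by
    intro y
    rw [MonoidHom.mem_ker]
    constructor
    · intro h; exact congrArg Subtype.val h
    · intro h; exact Subtype.ext h
  have hpow : ∀ y : ↥(D.RL.Li 1), y ∈ τ.ker → y ^ p = 1 := by
    intro y hy
    have h1 : (⟨(y : Γ), (hτk y).1 hy⟩ : σ.ker) ^ p = 1 := by rw [← hker]; exact pow_card_eq_one'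
    have h2 : (y : Γ) ^ p = 1 := congrArg (fun z : σ.ker => (z : Γ)) h1
    exact Subtype.ext h2
  -- the abelianization of the lift is a 2-group
  have hab : ∀ y : ↥(D.RL.Li 1), ∃ k : ℕ, (Abelianization.of y) ^ 2 ^ k = 1 := by
    have h1 : ∀ y : Γ, ∀ hy : y ∈ D.RL.Li 1, ∃ k : ℕ, (Abelianization.of (⟨y, hy⟩ : ↥(D.RL.Li 1))) ^ 2 ^ k = 1 := by
      intro y hy
      have hcl : y ∈ Subgroup.closure ((D.RL.X (S16.p 1) : Set Γ) ∪ (D.RL.X (S16.neg (S16.p 1)) : Set Γ)) := by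
        rw [← Subgroup.sup_eq_closure]; exact hy
      have hle : Subgroup.closure ((D.RL.X (S16.p 1) : Set Γ) ∪ (D.RL.X (S16.neg (S16.p 1)) : Set Γ)) ≤ D.RL.Li 1 := by
        rw [← Subgroup.sup_eq_closure]; exact le_rfl
      have h2 : ∀ (y : Γ) (hcl : y ∈ Subgroup.closure ((D.RL.X (S16.p 1) : Set Γ) ∪ (D.RL.X (S16.neg (S16.p 1)) : Set Γ))),
          ∃ k : ℕ, (Abelianization.of (⟨y, hle hcl⟩ : ↥(D.RL.Li 1))) ^ 2 ^ k = 1 := by
        intro y hcl
        induction hcl using Subgroup.closure_induction with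
        | mem y hy =>
          have h3 : PE 2 y := by
            rcases hy with hy | hy
            · exact (D.mem.1 hy).1
            · exact (D.mem.1 hy).1
          obtain ⟨k, hk⟩ := h3
          refine ⟨k, ?_⟩
          rw [← map_pow]
          have : (⟨y, hle (Subgroup.subset_closure hy)⟩ : ↥(D.RL.Li 1)) ^ 2 ^ k = 1 := Subtype.ext hk
          rw [this, map_one]
        | one => exact ⟨0, by rw [pow_zero, pow_one]; exact map_one _⟩
        | mul x y hx hy ihx ihy =>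
          obtain ⟨k, hk⟩ := ihx
          obtain ⟨l, hl⟩ := ihy
          refine ⟨k + l, ?_⟩
          have h3 : Abelianization.of (⟨x * y, hle (mul_mem hx hy)⟩ : ↥(D.RL.Li 1)) =
              Abelianization.of ⟨x, hle hx⟩ * Abelianization.of ⟨y, hle hy⟩ := by rw [← map_mul]; rfl
          rw [h3, mul_pow, pow_add, pow_mul, hk, one_pow, mul_comm (2 ^ k), pow_mul, hl, one_pow, one_mul]
        | inv x hx ih =>
          obtain ⟨k, hk⟩ := ih
          refine ⟨k, ?_⟩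
          have h3 : Abelianization.of (⟨x⁻¹, hle (inv_mem hx)⟩ : ↥(D.RL.Li 1)) =
              (Abelianization.of ⟨x, hle hx⟩)⁻¹ := by rw [← map_inv]; rfl
          rw [h3, inv_pow, hk, inv_one]
      exact h2 y hcl
    intro y
    exact h1 y y.2
  have hτst : Cfsg.IsStemExtension τ := by
    refine ⟨hτ, ?_, ?_⟩
    · intro y hy
      rw [mem_center_iff]
      intro z
      exact Subtype.ext (mem_center_iff.1 (hst.2.1 ((hτk y).1 hy)) z)
    · intro y hy
      obtain ⟨k, hk⟩ := hab y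
      have h1 : (Abelianization.of y) ^ p = 1 := by rw [← map_pow, hpow y hy, map_one]
      have h3 : Nat.Coprime (2 ^ k) p := Nat.Coprime.pow_left k ((Nat.coprime_primes Nat.prime_two hp).2 (Ne.symm hp2))
      have h2 : orderOf (Abelianization.of y) ∣ Nat.gcd (2 ^ k) p :=
        Nat.dvd_gcd (orderOf_dvd_of_pow_eq_one hk) (orderOf_dvd_of_pow_eq_one h1)
      rw [h3.gcd_eq_one, Nat.dvd_one, orderOf_eq_one_iff] at h2
      exact (QuotientGroup.eq_one_iff _).1 h2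
  have hτ1 : τ.ker = ⊥ := by
    obtain ⟨P⟩ : Nonempty (Sylow p ↥(D.RL.Li 1)) := inferInstance
    have h1 := Schur.not_dvd_card_ker_of_cyclic hτst P (hcyc _ (P.isPGroup'.map τ))
    rw [eq_bot_iff]
    intro y hy
    rw [mem_bot]
    by_contra hne
    apply h1
    have h2 : orderOf (⟨y, hy⟩ : τ.ker) = p := by
      apply orderOf_eq_prime
      · exact Subtype.ext (hpow y hy)
      · intro h; exact hne (congrArg Subtype.val h)
    rw [← h2]
    exact orderOf_dvd_natCard _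
  have hinj : ∀ y ∈ D.RL.Li 1, σ y = 1 → y = 1 := by
    intro y hy h1
    have h2 : (⟨y, hy⟩ : ↥(D.RL.Li 1)) ∈ τ.ker := (hτk _).2 h1
    rw [hτ1, mem_bot] at h2
    exact congrArg Subtype.val h2
  have b1 : Nat.card ↥(D.RL.H ⊓ D.RL.Li 1) ≤ Nat.card K - 1 := by
    refine le_trans ?_ hH1
    have hfin : Finite ↥(tF Z).G1 := inferInstance
    refine Nat.card_le_card_of_injective (fun y : ↥(D.RL.H ⊓ D.RL.Li 1) =>
      (⟨σ y, y.2.1, hLmap y y.2.2⟩ : ↥(R.H ⊓ R.Li 1))) ?_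
    rintro ⟨y, hy⟩ ⟨y', hy'⟩ e
    have e1 : σ y = σ y' := congrArg Subtype.val e
    have h1 := hinj (y * y'⁻¹) (mul_mem hy.2 (inv_mem hy'.2)) (by rw [map_mul, map_inv, e1, mul_inv_cancel])
    exact Subtype.ext (mul_inv_eq_one.1 h1)
  -- conclusion
  have hprod : ∏ i : Fin 2, Nat.card ↥(D.RL.H ⊓ D.RL.Li i) = Nat.card ↥(D.RL.H ⊓ D.RL.Li 0) * Nat.card ↥(D.RL.H ⊓ D.RL.Li 1) :=
    Fin.prod_univ_two _
  have hcardH : Nat.card R.H = (Nat.card K - 1) ^ 2 := by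
    rw [hR, card_H', Nat.card_units]
  rw [hprod, hker, hcardH] at key
  rw [← Nat.card_eq_fintype_card] at b0
  have hq : 2 ≤ Nat.card K := by
    rw [Nat.card_eq_fintype_card, hK]
    calc 2 = 2 ^ 1 := by norm_num
      _ ≤ 2 ^ n := Nat.pow_le_pow_right (by norm_num) hn
  have h5 : p * (Nat.card K - 1) ^ 2 ≤ (Nat.card K - 1) * (Nat.card K - 1) := key.trans (Nat.mul_le_mul b0 b1)
  have h6 : 0 < (Nat.card K - 1) ^ 2 := pow_pos (by omega) 2
  rw [← sq] at h5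
  have h7 := hp.two_le
  nlinarith

end

end Cfsg.Agent.MulF4
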