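import Cfsg.Agent.MulF4.UiA

set_option autoImplicit false
set_option maxRecDepth 100000

/-!
The commutator subgroup of the unipotent radical.
-/

namespace Cfsg.Agent.MulF4

open Cfsg.Lie Cfsg.Agent.Chev Cfsg.Agent.ChevGrp Cfsg.Agent.ChevGrp.DData Cfsg.Agent.ChevWeyl Cfsg.Agent.ChevTw
  Cfsg.Agent.Tw3 Cfsg.Agent.ChevGrp.RGrp Cfsg.Agent.Tw4 Cfsg.Agent.AutTF4 Cfsg.Agent.AutChev
open Subgroup
open scoped commutatorElement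

variable {K : Type*} [Field K] (Z : Sg K)

/-- the unit root elements -/
theorem exists_g8' : (∃ x ∈ (rtw (tF Z)).X 1, (x : ↥(chevF4.group K)) = g8 1) ∧
    (∃ x ∈ (rtw (tF Z)).X 2, (x : ↥(chevF4.group K)) = g8 2 ∧ x ≠ 1) ∧
    (∃ x ∈ (rtw (tF Z)).X 3, (x : ↥(chevF4.group K)) = g8 3 ∧ x * x ≠ 1) ∧
    (∃ x ∈ (rtw (tF Z)).X 4, (x : ↥(chevF4.group K)) = g8 4) := by
  have n0 : ∀ {k : ℕ} {A B : Fin 16} {x : ↥(tF Z).G1}, 0 < k → k < 8 → S16.w 0 A = B → x ∈ (rtw (tF Z)).X A →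
      (x : ↥(chevF4.group K)) = g8 k → (rtw (tF Z)).nn 0 * x * ((rtw (tF Z)).nn 0)⁻¹ ∈ (rtw (tF Z)).X B ∧
      (((rtw (tF Z)).nn 0 * x * ((rtw (tF Z)).nn 0)⁻¹ : ↥(tF Z).G1) : ↥(chevF4.group K)) = g8 (8 - k) := by
    intro k A B x h1 h2 h3 hx e
    refine ⟨by rw [← h3]; exact (rtw (tF Z)).nn_X 0 A x hx, ?_⟩
    show (RF K).nd (LF 0) * (x : ↥(chevF4.group K)) * ((RF K).nd (LF 0))⁻¹ = _
    rw [e]; exact nd0_g8 Z h1 h2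
  have n1 : ∀ {k : ℕ} {A B : Fin 16} {x : ↥(tF Z).G1}, k < 7 → S16.w 1 A = B → x ∈ (rtw (tF Z)).X A →
      (x : ↥(chevF4.group K)) = g8 k → (rtw (tF Z)).nn 1 * x * ((rtw (tF Z)).nn 1)⁻¹ ∈ (rtw (tF Z)).X B ∧
      (((rtw (tF Z)).nn 1 * x * ((rtw (tF Z)).nn 1)⁻¹ : ↥(tF Z).G1) : ↥(chevF4.group K)) = g8 (6 - k) := by
    intro k A B x h1 h3 hx e
    refine ⟨by rw [← h3]; exact (rtw (tF Z)).nn_X 1 A x hx, ?_⟩
    show (RF K).nd (LF 1) * (x : ↥(chevF4.group K)) * ((RF K).nd (LF 1))⁻¹ = _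
    rw [e]; exact nd1_g8 Z h1
  have hc : ∀ (j : Fin 2) (x : ↥(tF Z).G1), x ≠ 1 → (rtw (tF Z)).nn j * x * ((rtw (tF Z)).nn j)⁻¹ ≠ 1 :=
    fun j x hx h => hx (conj_eq_one_iff.1 h)
  have hs : ∀ (j : Fin 2) (x : ↥(tF Z).G1), x * x ≠ 1 → ((rtw (tF Z)).nn j * x * ((rtw (tF Z)).nn j)⁻¹) *
      ((rtw (tF Z)).nn j * x * ((rtw (tF Z)).nn j)⁻¹) ≠ 1 := by
    intro j x hx h
    apply hx
    have e : ((rtw (tF Z)).nn j * x * ((rtw (tF Z)).nn j)⁻¹) *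
      ((rtw (tF Z)).nn j * x * ((rtw (tF Z)).nn j)⁻¹) = (rtw (tF Z)).nn j * (x * x) * ((rtw (tF Z)).nn j)⁻¹ := by group
    rw [e] at h
    exact conj_eq_one_iff.1 h
  have h0 : ep Z 1 ∈ (rtw (tF Z)).X 0 := (mem_p0 Z _).2 ⟨1, rfl⟩
  have h0' : (ep Z 1 : ↥(tF Z).G1) ≠ 1 := by
    intro h
    have h1 : (S0 Z).A.x 0 = 1 := (S0 Z).A.x_zero
    rw [S0_x] at h1
    have h2 := ep_inj Z (h.trans h1.symm)
    exact one_ne_zero h2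
  have e0 : ((ep Z 1 : ↥(tF Z).G1) : ↥(chevF4.group K)) = g8 0 := (g8_0 Z).symm
  have h7 : fp Z 1 0 ∈ (rtw (tF Z)).X 7 := (mem_p1 Z _).2 ⟨1, 0, rfl⟩
  have e7 : ((fp Z 1 0 : ↥(tF Z).G1) : ↥(chevF4.group K)) = g8 7 := (g8_7 Z).symm
  have h7' : (fp Z 1 0 * fp Z 1 0 : ↥(tF Z).G1) ≠ 1 := by
    intro h
    apply g8_7_sq_ne Z
    rw [sq, ← e7]
    exact congrArg Subtype.val h
  have w : S16.w 0 7 = 1 ∧ S16.w 1 1 = 5 ∧ S16.w 0 5 = 3 ∧ S16.w 1 0 = 6 ∧ S16.w 0 6 = 2 ∧ S16.w 1 2 = 4 := by decide +kernel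
  obtain ⟨w1, w2, w3, w4, w5, w6⟩ := w
  have a1 := n0 (k := 7) (by norm_num) (by norm_num) w1 h7 e7
  have a5 := n1 (k := 1) (by norm_num) w2 a1.1 a1.2
  have a3 := n0 (k := 5) (by norm_num) (by norm_num) w3 a5.1 a5.2
  have a6 := n1 (k := 0) (by norm_num) w4 h0 e0
  have a2 := n0 (k := 6) (by norm_num) (by norm_num) w5 a6.1 a6.2
  have a4 := n1 (k := 2) (by norm_num) w6 a2.1 a2.2
  exact ⟨⟨_, a1.1, a1.2⟩, ⟨_, a2.1, a2.2, hc _ _ (hc _ _ h0')⟩, ⟨_, a3.1, a3.2, hs _ _ (hs _ _ (hs _ _ h7'))⟩, ⟨_, a4.1, a4.2⟩⟩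

/-- the commutator subgroup -/
noncomputable def DJ : Subgroup ↥(tF Z).G1 := ⁅Jn Z 0, Jn Z 0⁆

theorem X0_comm {x y : ↥(tF Z).G1} (hx : x ∈ (rtw (tF Z)).X 0) (hy : y ∈ (rtw (tF Z)).X 0) : x * y = y * x := by
  obtain ⟨t, rfl⟩ := (mem_p0 Z x).1 hx
  obtain ⟨u, rfl⟩ := (mem_p0 Z y).1 hy
  rw [← S0_x, ← S0_x, ← (S0 Z).A.x_add, ← (S0 Z).A.x_add, add_comm]

theorem comm_aux {G : Type*} [Group G] {J : Subgroup G} {x y v w : G} (hxy : x * y = y * x)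
    (hx : ∀ u ∈ J, x * u * x⁻¹ ∈ J) (hy : ∀ u ∈ J, y * u * y⁻¹ ∈ J) (hv : v ∈ J) (hw : w ∈ J) : ⁅x * v, y * w⁆ ∈ J := by
  have e : ⁅x * v, y * w⁆ = (x * v * x⁻¹) * (x * (y * w * y⁻¹) * x⁻¹) * (x * y * x⁻¹ * y⁻¹) * (y * (x * v⁻¹ * x⁻¹) * y⁻¹) *
      (y * w⁻¹ * y⁻¹) := by
    rw [commutatorElement_def]; group
  have e2 : x * y * x⁻¹ * y⁻¹ = 1 := by rw [hxy]; group
  rw [e, e2, mul_one]
  exact mul_mem (mul_mem (mul_mem (hx v hv) (hx _ (hy w hw))) (hy _ (hx _ (inv_mem hv)))) (hy _ (inv_mem hw))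

theorem DJ_le1 : DJ Z ≤ Jn Z 1 := by
  unfold DJ
  rw [commutator_le]
  intro g hg h hh
  obtain ⟨x, hx, v, hv, rfl⟩ := Jn_dec Z (i := 0) hg
  obtain ⟨y, hy, w, hw, rfl⟩ := Jn_dec Z (i := 0) hh
  have e1 : ((0 : Fin 16) : ℕ) + 1 = 1 := rfl
  rw [e1] at hv hw
  exact comm_aux (X0_comm Z hx hy) (fun u hu => Jn_conj Z (i := 0) hx hu) (fun u hu => Jn_conj Z (i := 0) hy hu) hv hw

theorem DJ_le : DJ Z ≤ Jn Z 0 := (DJ_le1 Z).trans (Jn_mono Z (by norm_num))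

theorem cW_vals : cW 1 3 = [2] ∧ cW 1 4 = [3, 3] := by decide +kernel

/-- a normalizing element normalizes the commutator subgroup -/
theorem DJ_conj {g x : ↥(tF Z).G1} (hg : ∀ u ∈ Jn Z 0, g * u * g⁻¹ ∈ Jn Z 0) (hx : x ∈ DJ Z) : g * x * g⁻¹ ∈ DJ Z := by
  have h : DJ Z ≤ (DJ Z).comap (MulAut.conj g).toMonoidHom := by
    nth_rewrite 1 [DJ]
    rw [commutator_le]
    intro a ha b hb
    rw [mem_comap]
    show g * ⁅a, b⁆ * g⁻¹ ∈ DJ Z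
    have e : g * ⁅a, b⁆ * g⁻¹ = ⁅g * a * g⁻¹, g * b * g⁻¹⁆ := by
      simp only [commutatorElement_def]; group
    rw [e]
    exact commutator_mem_commutator (hg a ha) (hg b hb)
  exact h hx

theorem n1_J0 {u : ↥(tF Z).G1} (hu : u ∈ Jn Z 0) : (rtw (tF Z)).nn 1 * u * ((rtw (tF Z)).nn 1)⁻¹ ∈ Jn Z 0 := by
  rw [← Ui1_eq] at hu ⊢
  exact (rtw (tF Z)).nn_Ui 1 u hu

theorem L1_norm : (rtw (tF Z)).Li 1 ≤ normalizer (Jn Z 0 : Set ↥(tF Z).G1) := by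
  refine sup_le ?_ ?_
  · apply norm_of_conj
    intro _ ha _ hc
    rw [p1_eq] at ha
    exact Jn_conj7 Z ha hc
  · apply norm_of_conj
    intro a ha c hc
    rw [← Ui1_eq] at hc ⊢
    exact (rtw (tF Z)).Xneg_norm 1 a ha c hc

theorem H_norm : (rtw (tF Z)).H ≤ normalizer (Jn Z 0 : Set ↥(tF Z).G1) :=
  norm_of_conj fun a ha c hc => H_norm_gen _ _ ha c hc

/-- the three nontrivial intersections -/
theorem DJ_ne : (∃ x ∈ (rtw (tF Z)).X 2, x ∈ DJ Z ∧ x ≠ 1) ∧ (∃ x ∈ (rtw (tF Z)).X 3, x ∈ DJ Z ∧ x ≠ 1) ∧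
    (∃ x ∈ (rtw (tF Z)).X 4, x ∈ DJ Z ∧ x ≠ 1) := by
  obtain ⟨⟨x1, hx1, e1⟩, ⟨x2, hx2, e2, hne2⟩, ⟨x3, hx3, e3, hne3⟩, x4, hx4, e4⟩ := exists_g8' Z
  have hm : ∀ {i : Fin 16} {x : ↥(tF Z).G1}, (i : ℕ) < 7 → x ∈ (rtw (tF Z)).X i → x ∈ Jn Z 0 :=
    fun {i x} hi hx => X_le_Jn Z (Nat.zero_le _) hi hx
  have c13 : x2 = ⁅x3⁻¹, x1⁻¹⁆ := by
    have h1 := g8_comm (K := K) Z.two (i := 1) (j := 3) (by norm_num) (by norm_num) (by norm_num)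
    rw [cW_vals.1] at h1
    have h1' : (g8 3 * g8 1 : ↥(chevF4.group K)) = g8 1 * g8 3 * g8 2 := by
      rw [h1]; simp [g8s]
    apply Subtype.ext
    show (x2 : ↥(chevF4.group K)) = (x3 : ↥(chevF4.group K))⁻¹ * (x1 : ↥(chevF4.group K))⁻¹ *
      ((x3 : ↥(chevF4.group K))⁻¹)⁻¹ * ((x1 : ↥(chevF4.group K))⁻¹)⁻¹
    rw [e1, e2, e3, inv_inv, inv_inv]
    have h3 : (g8 2 : ↥(chevF4.group K)) = (g8 1 * g8 3)⁻¹ * (g8 3 * g8 1) := by rw [h1']; group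
    rw [h3]; group
  have c14 : x3 * x3 = ⁅x4⁻¹, x1⁻¹⁆ := by
    have h1 := g8_comm (K := K) Z.two (i := 1) (j := 4) (by norm_num) (by norm_num) (by norm_num)
    rw [cW_vals.2] at h1
    have h1' : (g8 4 * g8 1 : ↥(chevF4.group K)) = g8 1 * g8 4 * (g8 3 * g8 3) := by
      rw [h1]; simp [g8s]
    apply Subtype.ext
    show (x3 : ↥(chevF4.group K)) * x3 = (x4 : ↥(chevF4.group K))⁻¹ * (x1 : ↥(chevF4.group K))⁻¹ *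
      ((x4 : ↥(chevF4.group K))⁻¹)⁻¹ * ((x1 : ↥(chevF4.group K))⁻¹)⁻¹
    rw [e1, e4, e3, inv_inv, inv_inv]
    have h3 : (g8 3 * g8 3 : ↥(chevF4.group K)) = (g8 1 * g8 4)⁻¹ * (g8 4 * g8 1) := by rw [h1']; group
    rw [h3]; group
  have d2 : x2 ∈ DJ Z := by
    rw [c13]
    exact commutator_mem_commutator (inv_mem (hm (by decide) hx3)) (inv_mem (hm (by decide) hx1))
  refine ⟨⟨x2, hx2, d2, hne2⟩, ⟨x3 * x3, mul_mem hx3 hx3, ?_, hne3⟩,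
    (rtw (tF Z)).nn 1 * x2 * ((rtw (tF Z)).nn 1)⁻¹, ?_, DJ_conj Z (fun u hu => n1_J0 Z hu) d2, fun h => hne2 (conj_eq_one_iff.1 h)⟩
  · rw [c14]
    exact commutator_mem_commutator (inv_mem (hm (by decide) hx4)) (inv_mem (hm (by decide) hx1))
  · have h1 := (rtw (tF Z)).nn_X 1 2 x2 hx2
    have h2 : S16.w 1 2 = 4 := by decide +kernel
    rwa [h2] at h1

section fin

variable [Fintype K] {n : ℕ} (hn : 1 ≤ n) (hK : Fintype.card K = 2 ^ n)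

theorem tk_J0 (x : Kˣ) {u : ↥(tF Z).G1} (hu : u ∈ Jn Z 0) : tk Z 7 x * u * (tk Z 7 x)⁻¹ ∈ Jn Z 0 :=
  H_norm_gen _ _ (tk_H Z 7 x) _ hu

include hn hK in
/-- the order of the commutator subgroup -/
theorem card_DJ : ∃ j, Nat.card (DJ Z) = Nat.card K ^ j ∧ 3 ≤ j := by
  obtain ⟨j, hj⟩ := card_inv Z hK (DJ_le Z) (fun x v hv => DJ_conj Z (fun u hu => tk_J0 Z x hu) hv)
  refine ⟨j, hj, ?_⟩
  have hq := two_le_q (K := K) hn hK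
  -- the intersections with the root subgroups
  have hint : ∀ {i : Fin 16}, (i : ℕ) < 7 → (∃ x ∈ (rtw (tF Z)).X i, x ∈ DJ Z ∧ x ≠ 1) →
      Nat.card K ≤ Nat.card ↥((rtw (tF Z)).X i ⊓ DJ Z) := by
    rintro i hi ⟨x, hx, hxD, hx1⟩
    obtain ⟨k, hk⟩ := card_inv Z hK (V := (rtw (tF Z)).X i ⊓ DJ Z) (inf_le_right.trans (DJ_le Z)) (fun x v hv =>
      mem_inf.2 ⟨(rtw (tF Z)).H_X _ (tk_H Z 7 x) _ v hv.1, DJ_conj Z (fun u hu => tk_J0 Z x hu) hv.2⟩)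
    rw [hk]
    rcases Nat.eq_zero_or_pos k with h0 | h0
    · exfalso
      rw [h0, pow_zero, Subgroup.card_eq_one] at hk
      apply hx1
      rw [← mem_bot, ← hk]
      exact mem_inf.2 ⟨hx, hxD⟩
    · calc Nat.card K = Nat.card K ^ 1 := (pow_one _).symm
        _ ≤ _ := Nat.pow_le_pow_right (by omega) h0
  obtain ⟨h2, h3, h4⟩ := DJ_ne Z
  have c2 := hint (i := 2) (by decide) h2
  have c3 := hint (i := 3) (by decide) h3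
  have c4 := hint (i := 4) (by decide) h4
  let f : ↥((rtw (tF Z)).X 2 ⊓ DJ Z) × ↥((rtw (tF Z)).X 3 ⊓ DJ Z) × ↥((rtw (tF Z)).X 4 ⊓ DJ Z) → ↥(DJ Z) := fun p =>
    ⟨(p.1 : ↥(tF Z).G1) * (p.2.1 * p.2.2), mul_mem p.1.2.2 (mul_mem p.2.1.2.2 p.2.2.2.2)⟩
  have key : ∀ {i : Fin 16}, (i : ℕ) < 7 → ∀ {x x' u u' : ↥(tF Z).G1}, x ∈ (rtw (tF Z)).X i → x' ∈ (rtw (tF Z)).X i →
      u ∈ Jn Z (i + 1) → u' ∈ Jn Z (i + 1) → x * u = x' * u' → x = x' ∧ u = u' := by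
    intro i hi x x' u u' hx hx' hu hu' e
    have e2 : x'⁻¹ * x = u' * u⁻¹ := by
      rw [eq_mul_inv_iff_mul_eq, mul_assoc, e, inv_mul_cancel_left]
    have e3 := Jn_dis Z hi (mul_mem (inv_mem hx') hx) (by rw [e2]; exact mul_mem hu' (inv_mem hu))
    have e4 : x = x' := (inv_mul_eq_one.1 e3).symm
    subst e4
    exact ⟨rfl, mul_left_cancel e⟩
  have hf : Function.Injective f := by
    rintro ⟨a, b, c⟩ ⟨a', b', c'⟩ e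
    have e1 : (a : ↥(tF Z).G1) * (b * c) = a' * (b' * c') := congrArg Subtype.val e
    have m3 : ∀ b : ↥((rtw (tF Z)).X 3 ⊓ DJ Z), (b : ↥(tF Z).G1) ∈ Jn Z (((2 : Fin 16) : ℕ) + 1) :=
      fun b => X_le_Jn Z (r := 3) (by decide) (by decide) b.2.1
    have m4 : ∀ b : ↥((rtw (tF Z)).X 4 ⊓ DJ Z), (b : ↥(tF Z).G1) ∈ Jn Z (((3 : Fin 16) : ℕ) + 1) :=
      fun b => X_le_Jn Z (r := 4) (by decide) (by decide) b.2.1
    have m4' : ∀ b : ↥((rtw (tF Z)).X 4 ⊓ DJ Z), (b : ↥(tF Z).G1) ∈ Jn Z (((2 : Fin 16) : ℕ) + 1) :=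
      fun b => X_le_Jn Z (r := 4) (by decide) (by decide) b.2.1
    obtain ⟨k1, k2⟩ := key (i := 2) (by decide) a.2.1 a'.2.1 (mul_mem (m3 b) (m4' c)) (mul_mem (m3 b') (m4' c')) e1
    obtain ⟨k3, k4⟩ := key (i := 3) (by decide) b.2.1 b'.2.1 (m4 c) (m4 c') k2
    rw [Subtype.ext k1, Subtype.ext k3, Subtype.ext k4]
  have h5 := Nat.card_le_card_of_injective f hf
  rw [Nat.card_prod, Nat.card_prod, hj] at h5
  have h6 : Nat.card K ^ 3 ≤ Nat.card K ^ j := by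
    calc Nat.card K ^ 3 = Nat.card K * (Nat.card K * Nat.card K) := by ring
      _ ≤ _ := Nat.mul_le_mul c2 (Nat.mul_le_mul c3 c4)
      _ ≤ _ := h5
  exact (Nat.pow_le_pow_iff_right (by omega)).1 h6

end fin

end Cfsg.Agent.MulF4
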