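import Cfsg.Agent.MulF4.OddC
import Cfsg.Agent.MulF4.LemZ
import Cfsg.Agent.S0126

set_option autoImplicit false
set_option maxRecDepth 100000

/-!
The odd Sylow subgroups of the rank one subgroup of Suzuki type are cyclic.
-/

namespace Cfsg.Agent.MulF4

open Cfsg.Lie Cfsg.Agent.Chev Cfsg.Agent.ChevGrp Cfsg.Agent.ChevGrp.DData Cfsg.Agent.ChevWeyl Cfsg.Agent.ChevTw
  Cfsg.Agent.Tw3 Cfsg.Agent.ChevGrp.RGrp Cfsg.Agent.Tw4 Cfsg.Agent.AutTF4 Cfsg.Agent.AutChev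
open Subgroup
open scoped commutatorElement

theorem cyclic_of_index {G : Type*} [Group G] [Finite G] {p : ℕ} [Fact p.Prime] {H : Subgroup G} (hH : IsCyclic H)
    (hidx : ¬ p ∣ H.index) {P : Subgroup G} (hP : IsPGroup p P) : IsCyclic P := by
  let S : Sylow p H := default
  have h1 : IsPGroup p ((S : Subgroup H).map H.subtype) := S.isPGroup'.map _
  have h2 : ¬ p ∣ ((S : Subgroup H).map H.subtype).index := by
    rw [index_map_of_injective _ H.subtype_injective, range_subtype]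
    intro h
    rcases (Fact.out : p.Prime).dvd_mul.1 h with h | h
    · exact S.not_dvd_index h
    · exact hidx h
  obtain ⟨Q, hQ⟩ := hP.exists_le_sylow
  let T := h1.toSylow h2
  let e : Q ≃* T := Q.equiv T
  have hT : (T : Subgroup G) ≤ H := by
    rintro _ ⟨x, -, rfl⟩
    exact x.2
  exact isCyclic_of_injective ((inclusion hT).comp (e.toMonoidHom.comp (inclusion hQ)))
    ((inclusion_injective hT).comp (e.injective.comp (inclusion_injective hQ)))

theorem not_cyclic_of_exp {G : Type*} [Group G] {p : ℕ} [Fact p.Prime] (hc : Nat.card G = p ^ 2) (h : ∀ x : G, x ^ p = 1) :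
    ¬ IsCyclic G := by
  intro hcyc
  obtain ⟨g, hg⟩ := hcyc.exists_generator
  have h1 : orderOf g = p ^ 2 := by rw [orderOf_eq_card_of_forall_mem_zpowers hg, hc]
  have h2 := orderOf_dvd_of_pow_eq_one (h g)
  rw [h1] at h2
  have hp := (Fact.out : p.Prime)
  have h3 := Nat.le_of_dvd hp.pos h2
  have h4 := hp.two_le
  nlinarith

theorem card_comap_of {N Γ : Type*} [Group N] [Group Γ] [Finite N] (π : N →* Γ) (hπ : Function.Surjective π)
    (W : Subgroup Γ) : Nat.card (W.comap π) = Nat.card W * Nat.card π.ker := by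
  have : Finite Γ := Finite.of_surjective _ hπ
  have h1 := index_comap_of_surjective W hπ
  have h2 := card_mul_index (W.comap π)
  have h3 := card_mul_index W
  have h4 := card_mul_index π.ker
  have h6 : π.ker.index = Nat.card Γ := by
    rw [index_ker, MonoidHom.range_eq_top.2 hπ, card_top]
  rw [h1, ← h4, h6, ← h3] at h2
  have h5 : 0 < W.index := Nat.pos_of_ne_zero index_ne_zero_of_finite
  apply Nat.eq_of_mul_eq_mul_right h5
  rw [h2]; ring

/-- passage to the quotient -/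
theorem quot_aux {G Γ A T : Type*} [Group G] [Finite G] [Group Γ] [Group A] [Finite A] {p q : ℕ} [Fact p.Prime] (hp2 : p ≠ 2)
    (hq : 2 ≤ q) (hpq : p ∣ q ^ 2 + 1) {J D N : Subgroup G} (hJN : J ≤ N) (hN : ∀ g ∈ N, ∀ u ∈ J, g * u * g⁻¹ ∈ J)
    (π : N →* Γ) (hπ : Function.Surjective π) (hπ1 : ∀ x : N, π x = 1 ↔ (x : G) ∈ D)
    (ι : A →* G) (hAc : ∀ a b : A, a * b = b * a) (hAnc : ¬ IsCyclic A)
    (hAcard : Nat.card A = p ^ 2) (hJ2 : IsPGroup 2 J) (hDJ : D ≤ J) (hAN : ∀ a, ι a ∈ N)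
    (t : T → G) (htN : ∀ x, t x ∈ N) (htA : ∀ x a, t x * ι a = ι a * t x)
    (hinv : ∀ V : Subgroup G, V ≤ J → (∀ x, ∀ v ∈ V, t x * v * (t x)⁻¹ ∈ V) → ∃ k, Nat.card V = q ^ k)
    (hJc : Nat.card J = q ^ 10) {j : ℕ} (hj : Nat.card D = q ^ j) (hj3 : 3 ≤ j)
    (hne : ∀ a, (∀ u ∈ J, ⁅ι a, u⁆ ∈ D) → a = 1) : False := by
  have hp : p.Prime := Fact.out
  have : Finite Γ := Finite.of_surjective _ hπ
  let φ : A →* Γ := π.comp (ι.codRestrict N hAN)
  have hφ : ∀ a, φ a = π ⟨ι a, hAN a⟩ := fun _ => rfl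
  have hcomm : ∀ a u, φ a * π u = π u * φ a → ⁅ι a, (u : G)⁆ ∈ D := by
    intro a u h
    have h3 : π (⁅(⟨ι a, hAN a⟩ : N), u⁆) = 1 := by
      rw [map_commutatorElement, commutatorElement_eq_one_iff_mul_comm]
      exact h
    exact (hπ1 _).1 h3
  have hφi : Function.Injective φ := by
    rw [injective_iff_map_eq_one]
    intro a ha
    apply hne
    intro u hu
    apply hcomm a ⟨u, hJN hu⟩
    rw [ha, one_mul, mul_one]
  let Q : Subgroup Γ := (J.subgroupOf N).map π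
  have hQm : ∀ x : N, (x : G) ∈ J → π x ∈ Q := fun x hx => mem_map_of_mem π (mem_subgroupOf.2 hx)
  have hQc : ∀ x : N, π x ∈ Q → (x : G) ∈ J := by
    rintro x ⟨y, hy, e⟩
    have h1 : π (y⁻¹ * x) = 1 := by rw [map_mul, map_inv, e, inv_mul_cancel]
    rw [hπ1] at h1
    have h2 : (x : G) = y * ((y⁻¹ * x : N) : G) := by
      show (x : G) = y * ((y : G)⁻¹ * x)
      rw [mul_inv_cancel_left]
    rw [h2]
    exact mul_mem (mem_subgroupOf.1 hy) (hDJ h1)
  have hker : π.ker = D.subgroupOf N := by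
    ext x
    rw [MonoidHom.mem_ker, hπ1, mem_subgroupOf]
  have hcW : ∀ W : Subgroup Γ, Nat.card ↥((W.comap π).map N.subtype) = Nat.card W * q ^ j := by
    intro W
    have h1 : Nat.card ↥((W.comap π).map N.subtype) = Nat.card ↥(W.comap π) :=
      Nat.card_congr ((W.comap π).equivMapOfInjective N.subtype N.subtype_injective).symm.toEquiv
    have h2 : Nat.card (D.subgroupOf N) = Nat.card D := Nat.card_congr (subgroupOfEquivOfLe (hDJ.trans hJN)).toEquiv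
    rw [h1, card_comap_of π hπ, hker, h2, hj]
  have hVle : ∀ W : Subgroup Γ, W ≤ Q → (W.comap π).map N.subtype ≤ J := by
    rintro W hW _ ⟨x, hx, rfl⟩
    exact hQc x (hW hx)
  have hdiv : ∀ {c s : ℕ}, c * q ^ j = q ^ s → c = q ^ (s - j) ∧ j ≤ s := by
    intro c s h
    have h3 : j ≤ s := by
      have h4 : q ^ j ∣ q ^ s := ⟨c, by rw [← h, mul_comm]⟩
      exact (Nat.pow_dvd_pow_iff_le_right (by omega)).1 h4
    refine ⟨?_, h3⟩
    have h4 : q ^ s = q ^ (s - j) * q ^ j := by rw [← pow_add]; congr 1; omega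
    rw [h4] at h
    exact Nat.eq_of_mul_eq_mul_right (pow_pos (by omega) j) h
  have hQcard : Nat.card Q = q ^ (10 - j) ∧ j ≤ 10 := by
    have h1 := hcW Q
    have h2 : (Q.comap π).map N.subtype = J := by
      apply le_antisymm (hVle Q le_rfl)
      intro x hx
      exact ⟨⟨x, hJN hx⟩, hQm _ hx, rfl⟩
    rw [h2, hJc] at h1
    exact hdiv h1.symm
  have hA'c : IsMulCommutative φ.range := ⟨⟨by
    rintro ⟨_, a, rfl⟩ ⟨_, b, rfl⟩
    apply Subtype.ext
    show φ a * φ b = φ b * φ a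
    rw [← map_mul, ← map_mul, hAc]⟩⟩
  refine lemZ (p := p) (q := q) (v := 10 - j) hp2 hq hpq Q φ.range ?_ ?_ ?_ ?_ hQcard.1 (by omega) ?_ ?_
  · exact (hJ2.comap_subtype).map π
  · intro h
    exact hAnc (isCyclic_of_injective (φ.rangeRestrict) (by
      intro a b e
      exact hφi (congrArg Subtype.val e)))
  · apply IsPGroup.of_card (n := 2)
    rw [← hAcard]
    exact Nat.card_congr (MonoidHom.ofInjective hφi).toEquiv.symm
  · rintro _ ⟨a, rfl⟩ _ ⟨u, hu, rfl⟩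
    rw [hφ, ← map_inv, ← map_mul, ← map_mul]
    apply hQm
    exact hN _ (hAN a) _ (mem_subgroupOf.1 hu)
  · rintro _ ⟨a, rfl⟩ _ ⟨b, rfl⟩
    have hW : Q ⊓ centralizer {φ a} ⊓ centralizer {φ b} ≤ Q := inf_le_left.trans inf_le_left
    obtain ⟨s, hs⟩ := hinv _ (hVle _ hW) (by
      rintro x _ ⟨v, hv, rfl⟩
      refine ⟨⟨t x, htN x⟩ * v * (⟨t x, htN x⟩)⁻¹, ?_, rfl⟩
      have hcen : ∀ a, π ⟨t x, htN x⟩ * φ a = φ a * π ⟨t x, htN x⟩ := by
        intro a
        rw [hφ, ← map_mul, ← map_mul]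
        congr 1
        exact Subtype.ext (htA x a)
      have hcc : ∀ a, π v ∈ centralizer {φ a} → π (⟨t x, htN x⟩ * v * (⟨t x, htN x⟩)⁻¹) ∈ centralizer {φ a} := by
        intro a ha
        have ht : π ⟨t x, htN x⟩ ∈ centralizer {φ a} := mem_centralizer_singleton_iff.2 (hcen a)
        rw [map_mul, map_mul, map_inv]
        exact mul_mem (mul_mem ht ha) (inv_mem ht)
      have hv' : π v ∈ Q ⊓ centralizer {φ a} ⊓ centralizer {φ b} := hv
      refine mem_inf.2 ⟨mem_inf.2 ⟨?_, hcc a hv'.1.2⟩, hcc b hv'.2⟩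
      apply hQm
      exact hN _ (htN x) _ (hQc v hv'.1.1))
    rw [hcW] at hs
    exact ⟨s - j, (hdiv hs).1⟩
  · rintro _ ⟨a, rfl⟩ ha1 hle
    apply ha1
    have h2 : a = 1 := by
      apply hne
      intro u hu
      exact hcomm a ⟨u, hJN hu⟩ (mem_centralizer_singleton_iff.1 (hle (hQm ⟨u, hJN hu⟩ hu))).symm
    rw [h2, map_one]

theorem exists_iota {G : Type*} [Group G] {L : Subgroup G} {P : Subgroup L} {A : Subgroup P} {p : ℕ} (hAp : ∀ a : A, a ^ p = 1) :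
    ∃ ι : A →* G, (∀ a, ι a ∈ L) ∧ Function.Injective ι ∧ ∀ a, ι a ^ p = 1 :=
  ⟨L.subtype.comp (P.subtype.comp A.subtype), fun a => ((a : P) : L).2,
    (subtype_injective _).comp ((subtype_injective _).comp (subtype_injective _)), fun a => by rw [← map_pow, hAp, map_one]⟩

/-- passage to the quotient -/
theorem quot_main {G A T : Type*} [Group G] [Finite G] [Group A] [Finite A] {p q : ℕ} [Fact p.Prime] (hp2 : p ≠ 2)
    (hq : 2 ≤ q) (hpq : p ∣ q ^ 2 + 1) {J D : Subgroup G}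
    (hDn : ∀ g : G, (∀ u ∈ J, g * u * g⁻¹ ∈ J) → ∀ d ∈ D, g * d * g⁻¹ ∈ D)
    (ι : A →* G) (hAc : ∀ a b : A, a * b = b * a) (hAnc : ¬ IsCyclic A)
    (hAcard : Nat.card A = p ^ 2) (hJ2 : IsPGroup 2 J) (hDJ : D ≤ J) (hAN : ∀ a, ι a ∈ normalizer (J : Set G))
    (t : T → G) (htN : ∀ x, t x ∈ normalizer (J : Set G)) (htA : ∀ x a, t x * ι a = ι a * t x)
    (hinv : ∀ V : Subgroup G, V ≤ J → (∀ x, ∀ v ∈ V, t x * v * (t x)⁻¹ ∈ V) → ∃ k, Nat.card V = q ^ k)
    (hJc : Nat.card J = q ^ 10) {j : ℕ} (hj : Nat.card D = q ^ j) (hj3 : 3 ≤ j)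
    (hne : ∀ a, (∀ u ∈ J, ⁅ι a, u⁆ ∈ D) → a = 1) : False := by
  have hNJ : ∀ g ∈ normalizer (J : Set G), ∀ u ∈ J, g * u * g⁻¹ ∈ J :=
    fun g hg u hu => (mem_normalizer_iff.1 hg u).1 hu
  have hDn : (D.subgroupOf (normalizer (J : Set G))).Normal := ⟨fun d hd g => by
    rw [mem_subgroupOf] at hd ⊢
    exact hDn _ (hNJ g g.2) _ hd⟩
  refine quot_aux hp2 hq hpq le_normalizer hNJ
    (QuotientGroup.mk' (D.subgroupOf (normalizer (J : Set G)))) (QuotientGroup.mk'_surjective _)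
    ?_ ι hAc hAnc hAcard hJ2 hDJ hAN t htN htA hinv hJc hj hj3 hne
  intro x
  rw [← mem_subgroupOf]
  exact QuotientGroup.eq_one_iff x

variable {K : Type*} [Field K] (Z : Sg K)

theorem pow_form {p : ℕ} {a h : ↥(tF Z).G1} (ha : a ∈ (rtw (tF Z)).X 7) (hh : h ∈ (rtw (tF Z)).H) :
    ∃ a' ∈ (rtw (tF Z)).X 7, (a * h) ^ p = a' * h ^ p := by
  induction p with
  | zero => exact ⟨1, one_mem _, by rw [pow_zero, pow_zero, one_mul]⟩
  | succ p ih =>
    obtain ⟨a', ha', e⟩ := ih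
    refine ⟨a' * (h ^ p * a * (h ^ p)⁻¹), mul_mem ha' ((rtw (tF Z)).H_X _ (pow_mem hh p) _ a ha), ?_⟩
    rw [pow_succ, e, pow_succ]; group

section fin

variable [Fintype K] {n : ℕ} (hn : 1 ≤ n) (hK : Fintype.card K = 2 ^ n)

include hK in
/-- the elements of odd order outside the Borel subgroup -/
theorem not_B {p : ℕ} (hp : p.Prime) (hp2 : p ≠ 2) (hH : ¬ p ∣ Nat.card ↥((rtw (tF Z)).H ⊓ (rtw (tF Z)).Li 1))
    {e a h : ↥(tF Z).G1} (ha : a ∈ (rtw (tF Z)).X 7) (hh : h ∈ (rtw (tF Z)).H ⊓ (rtw (tF Z)).Li 1) (he : e = a * h)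
    (hep : e ^ p = 1) : e = 1 := by
  have : Fact p.Prime := ⟨hp⟩
  obtain ⟨a', ha', e1⟩ := pow_form Z (p := p) ha hh.1
  rw [← he, hep] at e1
  have hU7 : (rtw (tF Z)).X 7 ≤ (rtw (tF Z)).U := (rtw (tF Z)).X_le_U (show pos16 7 by decide +kernel)
  have h1 : h ^ p = 1 := by
    apply (rtw (tF Z)).UH _ _ (pow_mem hh.1 p)
    have : h ^ p = a'⁻¹ := eq_inv_of_mul_eq_one_right e1.symm
    rw [this]; exact inv_mem (hU7 ha')
  have h2 : h = 1 := by
    by_contra hne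
    have h3 : orderOf h = p := orderOf_eq_prime h1 hne
    apply hH
    rw [← h3]
    exact Subgroup.orderOf_dvd_natCard _ hh
  rw [h2, mul_one] at he
  by_contra hne
  have h3 : orderOf e = p := orderOf_eq_prime hep hne
  have : Fact (Nat.Prime 2) := ⟨Nat.prime_two⟩
  have h4 : IsPGroup 2 ((rtw (tF Z)).X 7) := (pU Z hK).to_le hU7
  obtain ⟨k, hk⟩ := IsPGroup.iff_orderOf.1 h4 ⟨a, ha⟩
  rw [orderOf_mk, ← he, h3] at hk
  exact hp2 ((Nat.prime_dvd_prime_iff_eq hp Nat.prime_two).1 (hp.dvd_of_dvd_pow (dvd_of_eq hk)))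

include hK in
/-- nontrivial action modulo the commutator subgroup -/
theorem act_ne {p : ℕ} (hp : p.Prime) (hp2 : p ≠ 2) (hH : ¬ p ∣ Nat.card ↥((rtw (tF Z)).H ⊓ (rtw (tF Z)).Li 1))
    {e : ↥(tF Z).G1} (heL : e ∈ (rtw (tF Z)).Li 1) (hep : e ^ p = 1) (hc : ∀ u ∈ Jn Z 0, ⁅e, u⁆ ∈ DJ Z) : e = 1 := by
  rcases L1_cases Z heL with ⟨a, ha, h, hh, he⟩ | ⟨a, ha, h, hh, b, hb, he⟩
  · exact not_B Z hK hp hp2 hH ha hh he hep
  · exfalso
    apply (rtw (tF Z)).X_ne_bot 6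
    rw [eq_bot_iff]
    intro y hy
    rw [mem_bot]
    set n := (rtw (tF Z)).nn 1 with hnn
    have h1 : h⁻¹ * y * h ∈ (rtw (tF Z)).X 6 := by
      have := (rtw (tF Z)).H_X h⁻¹ (inv_mem hh.1) 6 y hy
      rwa [inv_inv] at this
    have h2 : (h⁻¹ * y * h) * b = b * (h⁻¹ * y * h) := by
      have h3 := comm16 (rtw (tF Z)) (i := 6) (j := 7) (by decide) (by decide) h1 hb
      have h4 : gen (rtw (tF Z)).X (fun r => (6 : Fin 16) < r ∧ r < 7) = ⊥ := by
        rw [eq_bot_iff, gen_le]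
        intro r hr
        have h5 := Fin.lt_def.1 hr.1
        have h6 := Fin.lt_def.1 hr.2
        have h7 : ((6 : Fin 16) : ℕ) = 6 := rfl
        have h8 : ((7 : Fin 16) : ℕ) = 7 := rfl
        omega
      rw [h4, mem_bot, commutatorElement_eq_one_iff_mul_comm] at h3
      exact h3
    have h3 : h⁻¹ * y * h ∈ Jn Z 0 := X_le_Jn Z (Nat.zero_le _) (by decide) h1
    have hz : n * y * n⁻¹ ∈ (rtw (tF Z)).X 0 := by
      have h4 := (rtw (tF Z)).nn_X 1 6 y hy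
      have h5 : S16.w 1 6 = 0 := by decide +kernel
      rwa [h5] at h4
    have h4 : e * (h⁻¹ * y * h) * e⁻¹ = a * (n * y * n⁻¹) * a⁻¹ := by
      have h5 : e * (h⁻¹ * y * h) * e⁻¹ = a * n * h * (b * (h⁻¹ * y * h)) * b⁻¹ * h⁻¹ * n⁻¹ * a⁻¹ := by rw [he]; group
      rw [h5, ← h2]; group
    have h5 : e * (h⁻¹ * y * h) * e⁻¹ ∈ Jn Z 1 := by
      have h6 : e * (h⁻¹ * y * h) * e⁻¹ = ⁅e, h⁻¹ * y * h⁆ * (h⁻¹ * y * h) := by
        rw [commutatorElement_def, inv_mul_cancel_right]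
      rw [h6]
      exact mul_mem (DJ_le1 Z (hc _ h3)) (X_le_Jn Z (by decide) (by decide) h1)
    rw [h4] at h5
    have h6 := Jn_conj7 Z (inv_mem ha) h5
    have h7 : a⁻¹ * (a * (n * y * n⁻¹) * a⁻¹) * a⁻¹⁻¹ = n * y * n⁻¹ := by group
    rw [h7] at h6
    have h8 := Jn_dis Z (i := 0) (by decide) hz h6
    exact conj_eq_one_iff.1 h8

include hn hK in
/-- the odd Sylow subgroups are cyclic -/
theorem cyc_L1 {p : ℕ} (hp : p.Prime) (hp2 : p ≠ 2) (P : Subgroup ↥((rtw (tF Z)).Li 1)) (hP : IsPGroup p P) : IsCyclic P := by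
  have : Fact p.Prime := ⟨hp⟩
  have : Fact (Nat.Prime 2) := ⟨Nat.prime_two⟩
  have hq := two_le_q (K := K) hn hK
  have hqK : Nat.card K = 2 ^ n := by rw [Nat.card_eq_fintype_card, hK]
  have hcard := card_L1 Z
  by_cases hH : p ∣ Nat.card ↥((rtw (tF Z)).H ⊓ (rtw (tF Z)).Li 1)
  · -- the torus contains a Sylow subgroup
    have hle : (rtw (tF Z)).H ⊓ (rtw (tF Z)).Li 1 ≤ (rtw (tF Z)).Li 1 := inf_le_right
    have e1 : Nat.card ↥(((rtw (tF Z)).H ⊓ (rtw (tF Z)).Li 1).subgroupOf ((rtw (tF Z)).Li 1)) =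
        Nat.card ↥((rtw (tF Z)).H ⊓ (rtw (tF Z)).Li 1) := Nat.card_congr (subgroupOfEquivOfLe hle).toEquiv
    have h1 : IsCyclic ↥(((rtw (tF Z)).H ⊓ (rtw (tF Z)).Li 1).subgroupOf ((rtw (tF Z)).Li 1)) := by
      have := H1_cyclic Z
      exact isCyclic_of_injective (subgroupOfEquivOfLe hle).toMonoidHom (subgroupOfEquivOfLe hle).injective
    refine cyclic_of_index h1 ?_ hP
    have h2 := card_mul_index (((rtw (tF Z)).H ⊓ (rtw (tF Z)).Li 1).subgroupOf ((rtw (tF Z)).Li 1))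
    rw [e1, hcard] at h2
    have h3 := Nat.eq_of_mul_eq_mul_left Nat.card_pos h2
    rw [h3]
    have h4 : p ∣ Nat.card K - 1 := hH.trans (H1_dvd Z)
    obtain ⟨r, hr⟩ : ∃ r, Nat.card K = r + 1 := ⟨Nat.card K - 1, by omega⟩
    intro h5
    rcases hp.dvd_mul.1 h5 with h5 | h5
    · have h6 := hp.dvd_of_dvd_pow h5
      rw [hqK] at h6
      exact hp2 ((Nat.prime_dvd_prime_iff_eq hp Nat.prime_two).1 (hp.dvd_of_dvd_pow h6))
    · rw [hr, Nat.add_sub_cancel] at h4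
      rw [hr] at h5
      have h6 : 1 + (r + 1) ^ 2 = 2 + (r + 2) * r := by ring
      rw [h6] at h5
      have h7 := (Nat.dvd_add_left (h4.mul_left (r + 2))).1 h5
      exact hp2 ((Nat.prime_dvd_prime_iff_eq hp Nat.prime_two).1 h7)
  · by_contra hnc
    obtain ⟨A, -, hAe, hAc⟩ := S0126.result hp2 hP hnc
    -- the order
    have hpq : p ∣ Nat.card K ^ 2 + 1 := by
      have h1 : p ∣ Nat.card A := by rw [hAc]; exact dvd_pow_self p two_ne_zero
      have h2 := (h1.trans (card_subgroup_dvd_card A)).trans (card_subgroup_dvd_card P)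
      rw [hcard] at h2
      rcases hp.dvd_mul.1 h2 with h2 | h2
      · exact absurd h2 hH
      rcases hp.dvd_mul.1 h2 with h2 | h2
      · exfalso
        have h6 := hp.dvd_of_dvd_pow h2
        rw [hqK] at h6
        exact hp2 ((Nat.prime_dvd_prime_iff_eq hp Nat.prime_two).1 (hp.dvd_of_dvd_pow h6))
      · rwa [add_comm] at h2
    -- the elementary abelian subgroup
    have hAp : ∀ a : A, a ^ p = 1 := fun a => Subtype.ext (hAe.2 a a.2)
    obtain ⟨ι, hι, hιi, hιp⟩ := exists_iota hAp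
    have hAcomm : IsMulCommutative A := hAe.1
    obtain ⟨j, hj, hj3⟩ := card_DJ Z hn hK
    have hcA : ∀ a b : A, a * b = b * a := fun a b => mul_comm' a b
    have hncA := not_cyclic_of_exp (G := A) hAc hAp
    have hAN : ∀ a, ι a ∈ normalizer (Jn Z 0 : Set ↥(tF Z).G1) := fun a => L1_norm Z (hι a)
    have htN : ∀ x, tk Z 7 x ∈ normalizer (Jn Z 0 : Set ↥(tF Z).G1) := fun x => H_norm Z (tk_H Z 7 x)
    have htA : ∀ x a, tk Z 7 x * ι a = ι a * tk Z 7 x := fun x a => (tk_L1 Z (hι a)).symm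
    have hne : ∀ a, (∀ u ∈ Jn Z 0, ⁅ι a, u⁆ ∈ DJ Z) → a = 1 := by
      intro a ha
      have h1 := act_ne Z hK hp hp2 hH (hι a) (hιp a) ha
      exact (injective_iff_map_eq_one ι).1 hιi a h1
    exact quot_main hp2 hq hpq (fun g hg d hd => DJ_conj Z hg hd) ι hcA hncA hAc ((pU Z hK).to_le (Jn_le_U Z 0))
      (DJ_le Z) hAN (tk Z 7) htN htA (fun V hV h => card_inv Z hK hV h) (card_J0 Z) hj hj3 hne

end fin

end Cfsg.Agent.MulF4
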