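import Cfsg.Agent.Tw4.Card
import Mathlib.NumberTheory.Zsqrtd.Basic

set_option autoImplicit false
set_option maxRecDepth 100000

/-!
The multiplicative group of the field as a module over the integers with the square root of two.
-/

namespace Cfsg.Agent.MulF4

open Cfsg.Lie Cfsg.Agent.Chev Cfsg.Agent.ChevGrp Cfsg.Agent.ChevGrp.DData Cfsg.Agent.ChevWeyl Cfsg.Agent.ChevTw
  Cfsg.Agent.Tw3 Cfsg.Agent.ChevGrp.RGrp Cfsg.Agent.Tw4

variable {K : Type*} [Field K] (Z : Sg K)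

/-- the square of the field automorphism -/
def psi : Kˣ →* Kˣ where
  toFun x := Z.θu x ^ 2
  map_one' := by rw [map_one, one_pow]
  map_mul' x y := by rw [map_mul, mul_pow]

theorem psi_apply (x : Kˣ) : psi Z x = Z.θu x ^ 2 := rfl

theorem psi_psi (x : Kˣ) : psi Z (psi Z x) = x ^ 2 := by
  rw [psi_apply, psi_apply, map_pow, Z.θu_sq]

/-- powers -/
def pw (x : Kˣ) (z : ℤ√2) : Kˣ := x ^ z.re * psi Z x ^ z.im

theorem pw_add (x : Kˣ) (z w : ℤ√2) : pw Z x (z + w) = pw Z x z * pw Z x w := by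
  unfold pw
  rw [Zsqrtd.re_add, Zsqrtd.im_add, zpow_add, zpow_add]
  simp only [mul_comm, mul_left_comm, mul_assoc]

theorem pw_mulx (x y : Kˣ) (z : ℤ√2) : pw Z (x * y) z = pw Z x z * pw Z y z := by
  unfold pw
  rw [map_mul, mul_zpow, mul_zpow]
  simp only [mul_comm, mul_left_comm, mul_assoc]

theorem pw_inv (x : Kˣ) (z : ℤ√2) : pw Z x⁻¹ z = pw Z x (-z) := by
  unfold pw
  rw [map_inv, Zsqrtd.re_neg, Zsqrtd.im_neg, zpow_neg, zpow_neg, inv_zpow, inv_zpow]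

theorem pw_zero (x : Kˣ) : pw Z x 0 = 1 := by
  unfold pw
  rw [Zsqrtd.re_zero, Zsqrtd.im_zero, zpow_zero, zpow_zero, one_mul]

theorem pw_one (x : Kˣ) : pw Z x 1 = x := by
  unfold pw
  rw [Zsqrtd.re_one, Zsqrtd.im_one, zpow_one, zpow_zero, mul_one]

theorem pw_psi (x : Kˣ) : psi Z x = pw Z x ⟨0, 1⟩ := by
  unfold pw
  rw [zpow_zero, zpow_one, one_mul]

theorem one_pw (z : ℤ√2) : pw Z 1 z = 1 := by
  unfold pw
  rw [map_one, one_zpow, one_zpow, one_mul]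

theorem pw_pw (x : Kˣ) (z w : ℤ√2) : pw Z (pw Z x z) w = pw Z x (z * w) := by
  unfold pw
  rw [map_mul, map_zpow, map_zpow, psi_psi, Zsqrtd.re_mul, Zsqrtd.im_mul, mul_zpow, mul_zpow]
  simp only [← zpow_mul, ← zpow_natCast]
  have e1 : x ^ (z.re * w.re + 2 * z.im * w.im) = x ^ (z.re * w.re) * x ^ (((2 : ℕ) : ℤ) * (z.im * w.im)) := by
    rw [← zpow_add]; congr 1; push_cast; ring
  have e2 : psi Z x ^ (z.re * w.im + z.im * w.re) = psi Z x ^ (z.im * w.re) * psi Z x ^ (z.re * w.im) := by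
    rw [← zpow_add]; congr 1; ring
  rw [e1, e2]
  simp only [mul_comm, mul_left_comm, mul_assoc]

include Z in
theorem two_pow_one {x : Kˣ} (k : ℕ) (h : x ^ 2 ^ k = 1) : x = 1 := by
  induction k with
  | zero => rw [pow_zero, pow_one] at h; exact h
  | succ k ih =>
    rw [pow_succ, pow_mul] at h
    apply ih
    have h1 : ((x ^ 2 ^ k : Kˣ) : K) ^ 2 = 1 := by
      rw [← Units.val_pow_eq_pow_val, h, Units.val_one]
    have h2 : (((x ^ 2 ^ k : Kˣ) : K) - 1) ^ 2 = 0 := by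
      have := Z.two
      linear_combination h1 + (1 - ((x ^ 2 ^ k : Kˣ) : K)) * this
    have h3 : ((x ^ 2 ^ k : Kˣ) : K) - 1 = 0 := by simpa using h2
    exact Units.ext (sub_eq_zero.1 h3)

/-- elements of two-power norm act injectively -/
theorem pw_ne {z : ℤ√2} {k : ℕ} (h : z.re * z.re - 2 * (z.im * z.im) = 2 ^ k ∨ z.re * z.re - 2 * (z.im * z.im) = - 2 ^ k)
    {x : Kˣ} (hx : pw Z x z = 1) : x = 1 := by
  have h1 : pw Z x (z * ⟨z.re, -z.im⟩) = 1 := by rw [← pw_pw, hx, one_pw]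
  have h2 : z * ⟨z.re, -z.im⟩ = (⟨z.re * z.re - 2 * (z.im * z.im), 0⟩ : ℤ√2) := by
    apply Zsqrtd.ext
    · rw [Zsqrtd.re_mul]; ring
    · rw [Zsqrtd.im_mul]; ring
  rw [h2] at h1
  unfold pw at h1
  rw [zpow_zero, mul_one] at h1
  simp only at h1
  apply two_pow_one Z k
  rcases h with h | h
  · rw [h] at h1
    exact_mod_cast h1
  · rw [h, zpow_neg, inv_eq_one] at h1
    exact_mod_cast h1

/-- the characters -/
def chiT (s : ℕ) : (ℤ√2) × (ℤ√2) := match s with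
  | 0 => (⟨2, 0⟩, ⟨-1, 0⟩)
  | 1 => (⟨1, 0⟩, ⟨1, -1⟩)
  | 2 => (⟨0, 1⟩, ⟨1, -1⟩)
  | 3 => (⟨-1, 1⟩, ⟨0, 0⟩)
  | 4 => (⟨0, 0⟩, ⟨-1, 1⟩)
  | 5 => (⟨1, -1⟩, ⟨-1, 1⟩)
  | 6 => (⟨0, -1⟩, ⟨1, 0⟩)
  | 7 => (⟨-1, 0⟩, ⟨2, -1⟩)
  | _ => (0, 0)

/-- determinants -/
def detT (i j : ℕ) : ℤ√2 := -(chiT i).2 * (chiT j).1 + (chiT i).1 * (chiT j).2

theorem detT_self : ∀ i < 8, detT i i = 0 := by decide +kernel

theorem detT_ne : ∀ i < 8, ∀ j < 8, i ≠ j → ∃ k < 4,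
    ((detT i j).re * (detT i j).re - 2 * ((detT i j).im * (detT i j).im) = 2 ^ k ∨
      (detT i j).re * (detT i j).re - 2 * ((detT i j).im * (detT i j).im) = - 2 ^ k) := by decide +kernel

/-- the value of a character -/
def chv (s : ℕ) (a b : Kˣ) : Kˣ := pw Z a (chiT s).1 * pw Z b (chiT s).2

/-- the elements of the kernel of a character -/
theorem chv_ker (i j : ℕ) (x : Kˣ) : chv Z j (pw Z x (-(chiT i).2)) (pw Z x (chiT i).1) = pw Z x (detT i j) := by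
  unfold chv detT
  rw [pw_pw, pw_pw, pw_add]

section conj

theorem jw_lt2 : ∀ j : Fin 2, ∀ r < 48, jwF4 j r < 48 ∧ jwF4 j (jwF4 j r) = r := by decide +kernel

include Z in
theorem njx (j : Fin 2) (s : Fin chevF4.nroots) (t : K) :
    (RF K).nd (LF j) * xF s t = xF (jwF4 j s) t * (RF K).nd (LF j) := by
  rw [nd_x _ _ _ Z.two, wdF_val]

include Z in
/-- conjugation of torus elements by the elements of the blocks -/
theorem nj_conj (j : Fin 2) {h h' : ↥(chevF4.group K)} (hh : h ∈ (RF K).H) (hh' : h' ∈ (RF K).H) (χ χ' : ℕ → Kˣ)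
    (e : ∀ (s : Fin chevF4.nroots) (t : K), h * xF s t * h⁻¹ = xF s ((χ s : Kˣ) * t))
    (e' : ∀ (s : Fin chevF4.nroots) (t : K), h' * xF s t * h'⁻¹ = xF s ((χ' s : Kˣ) * t))
    (e3 : ∀ s < 48, χ' s = χ (jwF4 j s)) : (RF K).nd (LF j) * h * ((RF K).nd (LF j))⁻¹ = h' := by
  apply (AF K).H_ext (N_conj_H (nd_mem_N _) hh) hh'
  intro s t
  change (RF K).nd (LF j) * h * ((RF K).nd (LF j))⁻¹ * xF s t * ((RF K).nd (LF j) * h * ((RF K).nd (LF j))⁻¹)⁻¹ =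
    h' * xF s t * h'⁻¹
  obtain ⟨hj1, hj2⟩ := jw_lt2 j s s.2
  have h1 : ∀ t, ((RF K).nd (LF j))⁻¹ * xF s t * (RF K).nd (LF j) = xF (jwF4 j s) t := by
    intro t
    have h2 := njx Z j ⟨jwF4 j s, hj1⟩ t
    have h3 : jwF4 j ((⟨jwF4 j s, hj1⟩ : Fin chevF4.nroots) : ℕ) = s := hj2
    rw [h3] at h2
    rw [mul_assoc, ← h2]; group
  have h4 : (RF K).nd (LF j) * h * ((RF K).nd (LF j))⁻¹ * xF s t *
      ((RF K).nd (LF j) * h * ((RF K).nd (LF j))⁻¹)⁻¹ =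
      (RF K).nd (LF j) * (h * (((RF K).nd (LF j))⁻¹ * xF s t * (RF K).nd (LF j)) * h⁻¹) *
        ((RF K).nd (LF j))⁻¹ := by group
  have h5 := e ⟨jwF4 j s, hj1⟩ t
  have h6 := njx Z j ⟨jwF4 j s, hj1⟩ ((χ (jwF4 j s) : Kˣ) * t)
  have h3 : jwF4 j ((⟨jwF4 j s, hj1⟩ : Fin chevF4.nroots) : ℕ) = s := hj2
  rw [h3] at h6
  rw [h4, h1, h5, h6, mul_inv_cancel_right, e', e3 s s.2]

theorem tor_tab2 : ∀ s < 48, chevF4.cartan 0 (jwF4 ((0 : Fin 2) : ℕ) s) = - chevF4.cartan 0 s ∧ chevF4.cartan 3 (jwF4 ((0 : Fin 2) : ℕ) s) = - chevF4.cartan 3 s ∧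
    chevF4.cartan 1 (jwF4 ((0 : Fin 2) : ℕ) s) = chevF4.cartan 1 s + chevF4.cartan 0 s ∧
    chevF4.cartan 2 (jwF4 ((0 : Fin 2) : ℕ) s) = chevF4.cartan 2 s + chevF4.cartan 3 s ∧
    chevF4.cartan 1 (jwF4 ((1 : Fin 2) : ℕ) s) = - chevF4.cartan 1 s ∧ chevF4.cartan 2 (jwF4 ((1 : Fin 2) : ℕ) s) = - chevF4.cartan 2 s := by
  decide +kernel

theorem n0_hb0 (c : Kˣ) : (RF K).nd (LF 0) * hb0 Z c * ((RF K).nd (LF 0))⁻¹ = hb0 Z c⁻¹ := by
  refine nj_conj Z 0 (hb0_H Z c) (hb0_H Z _) (ch0 Z c) (ch0 Z c⁻¹) (hb0_conj Z c) (hb0_conj Z _) ?_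
  intro s hs
  obtain ⟨a1, a2, -⟩ := tor_tab2 s hs
  unfold ch0
  rw [a1, a2, map_inv, inv_zpow, inv_zpow, zpow_neg, zpow_neg]

theorem n1_hb1 (c : Kˣ) : (RF K).nd (LF 1) * hb1 Z c * ((RF K).nd (LF 1))⁻¹ = hb1 Z c⁻¹ := by
  refine nj_conj Z 1 (hb1_H Z c) (hb1_H Z _) (ch1 Z c) (ch1 Z c⁻¹) (hb1_conj Z c) (hb1_conj Z _) ?_
  intro s hs
  obtain ⟨-, -, -, -, a1, a2⟩ := tor_tab2 s hs
  unfold ch1
  rw [a1, a2, map_inv, inv_zpow, inv_zpow, zpow_neg, zpow_neg]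

theorem n0_hb1 (c : Kˣ) : (RF K).nd (LF 0) * hb1 Z c * ((RF K).nd (LF 0))⁻¹ = hb0 Z c * hb1 Z c := by
  refine nj_conj Z 0 (hb1_H Z c) (mul_mem (hb0_H Z _) (hb1_H Z _)) (ch1 Z c) (fun s => ch0 Z c s * ch1 Z c s)
    (hb1_conj Z c) ?_ ?_
  · intro s t
    rw [Tw4.conj_mul, hb1_conj, hb0_conj, Units.val_mul, mul_assoc]
  · intro s hs
    obtain ⟨-, -, a1, a2, -, -⟩ := tor_tab2 s hs
    show ch0 Z c s * ch1 Z c s = ch1 Z c (jwF4 ((0 : Fin 2) : ℕ) s)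
    unfold ch0 ch1
    rw [a1, a2, zpow_add, zpow_add]
    simp only [mul_comm, mul_left_comm, mul_assoc]

end conj

end Cfsg.Agent.MulF4
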