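import Cfsg.Agent.MulF4.Wt
import Cfsg.Agent.Tw4.Sgn
import Cfsg.Agent.AutTF4.Uniq

set_option autoImplicit false
set_option maxRecDepth 100000

/-!
Relations between the root subgroups of the twisted groups of type F4.
-/

namespace Cfsg.Agent.MulF4

open Cfsg.Lie Cfsg.Agent.Chev Cfsg.Agent.ChevGrp Cfsg.Agent.ChevGrp.DData Cfsg.Agent.ChevWeyl Cfsg.Agent.ChevTw
  Cfsg.Agent.Tw3 Cfsg.Agent.ChevGrp.RGrp Cfsg.Agent.Tw4 Cfsg.Agent.AutTF4 Cfsg.Agent.AutChev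
open scoped commutatorElement

/-- commuting of the root elements in characteristic two -/
def cmT (r s : ℕ) : Bool := match chevF4.commTerms r s with
  | [] => true
  | [(_, c, 1, 1)] => decide (c = 2 ∨ c = -2)
  | _ => false

/-- commuting classes -/
def cmC (A B : ℕ) : Bool := (List.range 48).all fun r => (List.range 48).all fun s =>
  if cF4 r = A ∧ cF4 s = B then decide (s ≠ r ∧ s ≠ chevF4.neg r) && cmT r s else true

variable {K : Type*} [Field K] (Z : Sg K)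

include Z in
theorem cmT_comm {r s : ℕ} (hr : r < 48) (hs : s < 48) (h1 : s ≠ r) (h2 : s ≠ chevF4.neg r) (h : cmT r s = true) (t u : K) :
    xF s u * xF r t = xF r t * xF s u := by
  unfold cmT at h
  split at h
  · next e => exact xF_c0 hr hs h1 h2 e t u
  · next v c e => exact xF_c1 Z.two hr hs h1 h2 e (by simpa using h) t u
  · exact absurd h (by simp)

theorem comm_cls {A B : Fin 16} (h : cmC A B = true) {x y : ↥(tF Z).G1} (hx : x ∈ (rtw (tF Z)).X A)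
    (hy : y ∈ (rtw (tF Z)).X B) : x * y = y * x := by
  have hx1 := ((mem_rtw_X (tF Z)).1 hx).1
  have hy1 := ((mem_rtw_X (tF Z)).1 hy).1
  have key : ∀ r s : Fin chevF4.nroots, clsF r = A → clsF s = B → ∀ g ∈ (RF K).X r, ∀ k ∈ (RF K).X s, g * k = k * g := by
    intro r s hr hs g hg k hk
    obtain ⟨t, rfl⟩ := (XF_eq r).1 hg
    obtain ⟨u, rfl⟩ := (XF_eq s).1 hk
    unfold cmC at h
    rw [List.all_eq_true] at h
    have h1 := h r (List.mem_range.2 r.2)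
    rw [List.all_eq_true] at h1
    have h2 := h1 s (List.mem_range.2 s.2)
    have hr' : cF4 r = A := congrArg Fin.val hr
    have hs' : cF4 s = B := congrArg Fin.val hs
    rw [if_pos ⟨hr', hs'⟩, Bool.and_eq_true, decide_eq_true_iff] at h2
    exact (cmT_comm Z r.2 s.2 h2.1.1 h2.1.2 h2.2 t u).symm
  have h1 : gen (RF K).X (fun r => clsF r = B) ≤ Subgroup.centralizer (gen (RF K).X (fun r => clsF r = A) : Set _) := by
    rw [gen_le]
    intro s hs k hk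
    rw [Subgroup.mem_centralizer_iff]
    have h2 : gen (RF K).X (fun r => clsF r = A) ≤ Subgroup.centralizer {k} := by
      rw [gen_le]
      intro r hr g hg
      rw [Subgroup.mem_centralizer_singleton_iff]
      exact key r s hr hs g hg k hk
    intro g hg
    exact Subgroup.mem_centralizer_singleton_iff.1 (h2 hg)
  have h2 := Subgroup.mem_centralizer_iff.1 (h1 hy1) _ hx1
  exact Subtype.ext h2

theorem cmC02 : cmC 0 2 = true := by decide +kernel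
theorem cmC37 : cmC 3 7 = true ∧ cmC 3 15 = true ∧ cmC 4 0 = true ∧ cmC 4 8 = true := by decide +kernel

/-- the unit root elements -/
theorem exists_g8 : (∃ x ∈ (rtw (tF Z)).X 0, (x : ↥(chevF4.group K)) = g8 0) ∧ (∃ x ∈ (rtw (tF Z)).X 1, (x : ↥(chevF4.group K)) = g8 1) ∧
    (∃ x ∈ (rtw (tF Z)).X 3, (x : ↥(chevF4.group K)) = g8 3) := by
  have n0 : ∀ {k : ℕ} {A B : Fin 16}, 0 < k → k < 8 → S16.w 0 A = B → (∃ x ∈ (rtw (tF Z)).X A, (x : ↥(chevF4.group K)) = g8 k) →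
      ∃ x ∈ (rtw (tF Z)).X B, (x : ↥(chevF4.group K)) = g8 (8 - k) := by
    rintro k A B h1 h2 h3 ⟨x, hx, e⟩
    refine ⟨(rtw (tF Z)).nn 0 * x * ((rtw (tF Z)).nn 0)⁻¹, by rw [← h3]; exact (rtw (tF Z)).nn_X 0 A x hx, ?_⟩
    show (RF K).nd (LF 0) * (x : ↥(chevF4.group K)) * ((RF K).nd (LF 0))⁻¹ = _
    rw [e]; exact nd0_g8 Z h1 h2
  have n1 : ∀ {k : ℕ} {A B : Fin 16}, k < 7 → S16.w 1 A = B → (∃ x ∈ (rtw (tF Z)).X A, (x : ↥(chevF4.group K)) = g8 k) →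
      ∃ x ∈ (rtw (tF Z)).X B, (x : ↥(chevF4.group K)) = g8 (6 - k) := by
    rintro k A B h1 h3 ⟨x, hx, e⟩
    refine ⟨(rtw (tF Z)).nn 1 * x * ((rtw (tF Z)).nn 1)⁻¹, by rw [← h3]; exact (rtw (tF Z)).nn_X 1 A x hx, ?_⟩
    show (RF K).nd (LF 1) * (x : ↥(chevF4.group K)) * ((RF K).nd (LF 1))⁻¹ = _
    rw [e]; exact nd1_g8 Z h1
  have h0 : ∃ x ∈ (rtw (tF Z)).X 0, (x : ↥(chevF4.group K)) = g8 0 :=
    ⟨ep Z 1, (mem_p0 Z _).2 ⟨1, rfl⟩, (g8_0 Z).symm⟩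
  have h7 : ∃ x ∈ (rtw (tF Z)).X 7, (x : ↥(chevF4.group K)) = g8 7 :=
    ⟨fp Z 1 0, (mem_p1 Z _).2 ⟨1, 0, rfl⟩, (g8_7 Z).symm⟩
  have h1 := n0 (A := 7) (B := 1) (by norm_num) (by norm_num) (by decide +kernel) h7
  have h5 := n1 (A := 1) (B := 5) (by norm_num) (by decide +kernel) h1
  have h3 := n0 (A := 5) (B := 3) (by norm_num) (by norm_num) (by decide +kernel) h5
  exact ⟨h0, h1, h3⟩

theorem sq_theta (w : K) : ∃ t : K, Z.θ t * t = w ∧ (w ≠ 0 → t ≠ 0) := by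
  by_cases hw : w = 0
  · exact ⟨0, by rw [mul_zero, hw], fun h => absurd hw h⟩
  · have hθ0 : Z.θ w ≠ 0 := by rw [ne_eq, map_eq_zero]; exact hw
    refine ⟨w ^ 2 * (Z.θ w ^ 2)⁻¹, ?_, fun _ => mul_ne_zero (pow_ne_zero 2 hw) (inv_ne_zero (pow_ne_zero 2 hθ0))⟩
    have h5 : Z.θ (Z.θ w) ^ 2 = w := Z.hθ w
    rw [map_mul, map_inv₀, map_pow, map_pow, h5]
    field_simp

/-- the centre of the root subgroup `X 1` consists of commutators -/
theorem comm_form {z : ↥(tF Z).G1} (hz : z ∈ (rtw (tF Z)).X 1) (hz2 : z * z = 1) :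
    ∃ a ∈ (rtw (tF Z)).X 3, ∃ b ∈ (rtw (tF Z)).X 0, z = ⁅a, b⁆ := by
  obtain ⟨⟨x0, hx0, e0⟩, ⟨x1, hx1, e1⟩, x3, hx3, e3⟩ := exists_g8 Z
  -- the unit relation
  have h1 : (g8 3 * g8 0 : ↥(chevF4.group K)) = g8 0 * g8 3 * (g8 1 * g8 1) := by
    have := g8_comm (K := K) Z.two (i := 0) (j := 3) (by norm_num) (by norm_num) (by norm_num)
    have e : (g8s (cW 0 3) : ↥(chevF4.group K)) = g8 1 * g8 1 := by
      have e1 : cW 0 3 = [1, 1] := by decide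
      rw [e1]; simp [g8s]
    rwa [e] at this
  have h2 : x1 * x1 = ⁅x3⁻¹, x0⁻¹⁆ := by
    apply Subtype.ext
    show (x1 : ↥(chevF4.group K)) * x1 = (x3 : ↥(chevF4.group K))⁻¹ * (x0 : ↥(chevF4.group K))⁻¹ *
      ((x3 : ↥(chevF4.group K))⁻¹)⁻¹ * ((x0 : ↥(chevF4.group K))⁻¹)⁻¹
    rw [e0, e1, e3, inv_inv, inv_inv]
    have h3 : (g8 1 * g8 1 : ↥(chevF4.group K)) = (g8 0 * g8 3)⁻¹ * (g8 3 * g8 0) := by rw [h1]; group
    rw [h3]; group
  -- transfer to the root subgroup `X 7`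
  set n := (rtw (tF Z)).nn 0 with hn
  have hz' : n * z * n⁻¹ ∈ (rtw (tF Z)).X 7 := (rtw (tF Z)).nn_X 0 1 z hz
  have hx1' : n * x1 * n⁻¹ ∈ (rtw (tF Z)).X 7 := (rtw (tF Z)).nn_X 0 1 x1 hx1
  have hx7 : n * x1 * n⁻¹ = fp Z 1 0 := by
    apply Subtype.ext
    show (RF K).nd (LF 0) * (x1 : ↥(chevF4.group K)) * ((RF K).nd (LF 0))⁻¹ = fP Z 1 0
    rw [e1, ← g8_7 Z]
    exact nd0_g8 Z (k := 1) (by norm_num) (by norm_num)
  obtain ⟨t, u, e⟩ := (mem_p1 Z _).1 hz'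
  have ht : t = 0 := by
    apply fp_sq_one Z (u := u)
    rw [← e]
    calc n * z * n⁻¹ * (n * z * n⁻¹) = n * (z * z) * n⁻¹ := by group
      _ = 1 := by rw [hz2]; group
  subst ht
  by_cases hu : u = 0
  · subst hu
    rw [fp_zero] at e
    have hz1 : z = 1 := conj_eq_one_iff.1 e
    exact ⟨1, one_mem _, 1, one_mem _, by rw [hz1, commutatorElement_one_right]⟩
  · obtain ⟨s, hs1, hs2⟩ := sq_theta Z u
    have hs0 := hs2 hu
    have h3 : hh0 Z (Units.mk0 s hs0)⁻¹ * fp Z 0 1 * (hh0 Z (Units.mk0 s hs0)⁻¹)⁻¹ = fp Z 0 u := by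
      rw [hh0_fp, mul_zero, mul_one]
      congr 1
      rw [Units.val_inv_eq_inv_val, Units.val_mk0, map_inv₀, ← mul_inv, inv_inv, hs1]
    have h4 : fp Z 0 1 = fp Z 1 0 * fp Z 1 0 := by
      rw [fp_sq, map_one, one_mul]
    set h := n⁻¹ * hh0 Z (Units.mk0 s hs0)⁻¹ * n with hh
    have hH : h ∈ (rtw (tF Z)).H := RGrp.nn_H' 0 (hh0_H Z _)
    have h5 : z = h * (x1 * x1) * h⁻¹ := by
      have h6 : z = n⁻¹ * (n * z * n⁻¹) * n := by group
      rw [h6, e, ← h3, h4, ← hx7, hh]; group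
    rw [h5, h2]
    refine ⟨h * x3⁻¹ * h⁻¹, (rtw (tF Z)).H_X h hH 3 _ (inv_mem hx3), h * x0⁻¹ * h⁻¹,
      (rtw (tF Z)).H_X h hH 0 _ (inv_mem hx0), ?_⟩
    simp only [commutatorElement_def]; group

end Cfsg.Agent.MulF4
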