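import Cfsg.Agent.Schur.Torus

set_option autoImplicit false

/-!
Splitting of central extensions over root subgroups.
-/

namespace Cfsg.Agent.MulF4

open Subgroup
open scoped commutatorElement

variable {Γ G : Type*} [Group Γ] [Group G]

/-- lifts of commuting subgroups commute -/
theorem comm_lift {σ : Γ →* G} (hσ : Function.Surjective σ) (hc : σ.ker ≤ center Γ) {A B : Subgroup G} [Finite B]
    (hAB : ∀ a ∈ A, ∀ b ∈ B, a * b = b * a) {t : G} (h1 : ∀ a ∈ A, t * a * t⁻¹ = a) (htB : ∀ b ∈ B, t * b * t⁻¹ ∈ B)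
    (h2 : ∀ b ∈ B, t * b * t⁻¹ = b → b = 1) {x y : Γ} (hx : σ x ∈ A) (hy : σ y ∈ B) : x * y = y * x := by
  have hinj : Function.Injective (fun b : B => (⟨t * b * t⁻¹, htB b b.2⟩ * b⁻¹ : B)) := by
    intro y y' e
    have e1 : t * (y : G) * t⁻¹ * (y : G)⁻¹ = t * (y' : G) * t⁻¹ * (y' : G)⁻¹ := congrArg Subtype.val e
    have e2 : t * ((y' : G)⁻¹ * y) * t⁻¹ = (y' : G)⁻¹ * y := by
      have e3 : t * (y : G) * t⁻¹ = t * (y' : G) * t⁻¹ * (y' : G)⁻¹ * y := by rw [← e1]; group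
      calc t * ((y' : G)⁻¹ * y) * t⁻¹ = (t * (y' : G) * t⁻¹)⁻¹ * (t * (y : G) * t⁻¹) := by group
        _ = (t * (y' : G) * t⁻¹)⁻¹ * (t * (y' : G) * t⁻¹ * (y' : G)⁻¹ * y) := by rw [e3]
        _ = _ := by group
    have e4 := h2 _ (B.mul_mem (B.inv_mem y'.2) y.2) e2
    exact Subtype.ext (inv_mul_eq_one.1 e4).symm
  obtain ⟨b, hb⟩ := (Finite.injective_iff_surjective.1 hinj) ⟨σ y, hy⟩
  have hb' : t * (b : G) * t⁻¹ * (b : G)⁻¹ = σ y := congrArg Subtype.val hb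
  obtain ⟨y0, hy0⟩ := hσ (b : G)
  obtain ⟨τ, hτ⟩ := hσ t
  have hcen : ∀ w, σ w ∈ B → ⁅x, w⁆ ∈ center Γ := by
    intro w hw
    apply hc
    rw [MonoidHom.mem_ker, map_commutatorElement, commutatorElement_def, hAB _ hx _ hw, mul_inv_cancel_right, mul_inv_cancel]
  have e1 : ⁅x, y⁆ = ⁅x, (τ * y0 * τ⁻¹) * y0⁻¹⁆ := by
    apply Schur.comm_congr hc rfl
    rw [map_mul, map_mul, map_mul, map_inv, map_inv, hy0, hτ, hb']
  have e2 : ⁅x, (τ * y0 * τ⁻¹) * y0⁻¹⁆ = ⁅x, τ * y0 * τ⁻¹⁆ * ⁅x, y0⁻¹⁆ :=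
    Schur.comm_mul_right (hcen _ (by rw [map_inv, hy0]; exact inv_mem b.2))
  have e3 : ⁅x, y0 * y0⁻¹⁆ = ⁅x, y0⁆ * ⁅x, y0⁻¹⁆ :=
    Schur.comm_mul_right (hcen _ (by rw [map_inv, hy0]; exact inv_mem b.2))
  have e4 : ⁅x, τ * y0 * τ⁻¹⁆ = ⁅x, y0⁆ := by
    have h3 : ⁅x, τ * y0 * τ⁻¹⁆ = ⁅τ * x * τ⁻¹, τ * y0 * τ⁻¹⁆ := by
      apply Schur.comm_congr hc _ rfl
      rw [map_mul, map_mul, map_inv, hτ, h1 _ hx]
    rw [h3, ← Schur.comm_conj]
    have h4 := mem_center_iff.1 (hcen y0 (by rw [hy0]; exact b.2)) τ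
    rw [h4, mul_inv_cancel_right]
  rw [mul_inv_cancel, commutatorElement_one_right] at e3
  rw [e2, e4, ← e3, commutatorElement_def, mul_inv_eq_one, mul_inv_eq_iff_eq_mul] at e1
  exact e1

theorem comm_abs {a b m m' : Γ} (h1 : b * m = m * b) (h2 : m * m' = m' * m) (h3 : a * m' = m' * a) :
    ⁅a * m, b * m'⁆ = ⁅a, b⁆ := by
  rw [commutatorElement_def, commutatorElement_def]
  calc a * m * (b * m') * (a * m)⁻¹ * (b * m')⁻¹
      = a * (m * b) * m' * (a * m)⁻¹ * (b * m')⁻¹ := by group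
    _ = a * (b * m) * m' * (a * m)⁻¹ * (b * m')⁻¹ := by rw [h1]
    _ = a * b * (m * m') * (a * m)⁻¹ * (b * m')⁻¹ := by group
    _ = a * b * (m' * m) * (a * m)⁻¹ * (b * m')⁻¹ := by rw [h2]
    _ = a * b * m' * (m * (a * m)⁻¹) * (b * m')⁻¹ := by group
    _ = a * b * m' * a⁻¹ * m'⁻¹ * b⁻¹ := by group
    _ = a * b * (a⁻¹ * a) * m' * a⁻¹ * m'⁻¹ * b⁻¹ := by group
    _ = a * b * a⁻¹ * (a * m') * a⁻¹ * m'⁻¹ * b⁻¹ := by group
    _ = a * b * a⁻¹ * (m' * a) * a⁻¹ * m'⁻¹ * b⁻¹ := by rw [h3]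
    _ = _ := by group

theorem comm_cen {a m k : Γ} (h : a * m = m * a) (hk : k ∈ center Γ) : a * (m * k) = m * k * a := by
  rw [← mul_assoc, h, mul_assoc, mem_center_iff.1 hk a, mul_assoc]

open scoped IsMulCommutative in
/-- the commutator form of the lift of a root subgroup modulo a central subgroup -/
theorem mixed {F : Type*} [Field F] [Fintype F] (h4 : Fintype.card F ≠ 4) (h9 : Fintype.card F ≠ 9) {σ : Γ →* G}
    (hc : σ.ker ≤ center Γ) (M : Subgroup Γ) (hM : ∀ m ∈ M, σ m = 1 → m = 1) (cM : ∀ m ∈ M, ∀ m' ∈ M, m * m' = m' * m)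
    (x : F → Γ) (cen : ∀ t, ∀ m ∈ M, x t * m = m * x t) (com : ∀ s t, ∃ m ∈ M, σ ⁅x s, x t⁆ = σ m)
    (add : ∀ s t, ∃ m ∈ M, σ (x (s + t)) = σ (x s * x t * m))
    (inv : ∀ c : F, c ≠ 0 → ∃ h : Γ, (∀ m ∈ M, h * m * h⁻¹ ∈ M) ∧ ∀ t, ∃ m ∈ M, σ (h * x t * h⁻¹) = σ (x (c * c * t) * m)) :
    ∀ s t, ⁅x s, x t⁆ ∈ M := by
  choose m hm hm' using com
  have hker : ∀ s t, σ (⁅x s, x t⁆ * (m s t)⁻¹) = 1 := fun s t => by rw [map_mul, map_inv, hm', mul_inv_cancel]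
  have hcen : ∀ s t, ⁅x s, x t⁆ * (m s t)⁻¹ ∈ center Γ := fun s t => hc (hker s t)
  have huniq : ∀ s t (c w : Γ), σ c = 1 → w ∈ M → ⁅x s, x t⁆ = c * w → ⁅x s, x t⁆ * (m s t)⁻¹ = c := by
    intro s t c w hcc hw e
    have h1 : m s t * w⁻¹ = (⁅x s, x t⁆ * (m s t)⁻¹)⁻¹ * c := by rw [e]; group
    have h2 := hM _ (mul_mem (hm s t) (inv_mem hw)) (by rw [h1, map_mul, map_inv, hker, hcc, inv_one, one_mul])
    rw [h2] at h1
    exact inv_mul_eq_one.1 h1.symm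
  have hdec : ∀ s t, ∃ c w, σ c = 1 ∧ c ∈ center Γ ∧ w ∈ M ∧ ⁅x s, x t⁆ = c * w ∧ c = ⁅x s, x t⁆ * (m s t)⁻¹ := fun s t =>
    ⟨_, m s t, hker s t, hcen s t, hm s t, by rw [inv_mul_cancel_right], rfl⟩
  have hcomx : ∀ r s t, x r * ⁅x s, x t⁆ = ⁅x s, x t⁆ * x r := by
    intro r s t
    obtain ⟨c, w, -, hc', hw, e, -⟩ := hdec s t
    rw [e, ← mul_assoc, mem_center_iff.1 hc' (x r), mul_assoc, cen r w hw, mul_assoc]
  -- elements with the same image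
  have hlift : ∀ {a b : Γ}, σ a = σ b → ∃ k, k ∈ center Γ ∧ a = b * k := by
    intro a b h
    exact ⟨b⁻¹ * a, hc (by rw [MonoidHom.mem_ker, map_mul, map_inv, h, inv_mul_cancel]), by group⟩
  let B : F →+ F →+ Additive (center Γ) := by
    refine AddMonoidHom.mk' (fun s => AddMonoidHom.mk' (fun t => Additive.ofMul
      ⟨⁅x s, x t⁆ * (m s t)⁻¹, hcen s t⟩) ?_) ?_
    · intro t t'
      rw [← ofMul_mul]
      congr 1
      apply Subtype.ext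
      show ⁅x s, x (t + t')⁆ * (m s (t + t'))⁻¹ = (⁅x s, x t⁆ * (m s t)⁻¹) * (⁅x s, x t'⁆ * (m s t')⁻¹)
      obtain ⟨c, w, hc1, hc2, hw, e, ec⟩ := hdec s t
      obtain ⟨c', w', hc1', hc2', hw', e', ec'⟩ := hdec s t'
      rw [← ec, ← ec']
      apply huniq s (t + t') (c * c') (w * w') (by rw [map_mul, hc1, hc1', mul_one]) (mul_mem hw hw')
      obtain ⟨n, hn, en⟩ := add t t'
      obtain ⟨k, hk, ek⟩ := hlift en
      have h1 : ⁅x s, x (t + t')⁆ = ⁅x s, x t * x t'⁆ := by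
        have h2 : x (t + t') = x t * x t' * (n * k) := by rw [ek]; group
        have h3 : x s = x s * 1 := (mul_one _).symm
        rw [h2]
        conv_lhs => rw [h3]
        apply comm_abs (by rw [mul_one, one_mul]) (by rw [mul_one, one_mul])
        exact comm_cen (cen s n hn) hk
      have h4 : ⁅x s, x t * x t'⁆ = ⁅x s, x t⁆ * (x t * ⁅x s, x t'⁆ * (x t)⁻¹) := by
        simp only [commutatorElement_def]; group
      rw [h1, h4, hcomx t s t', mul_inv_cancel_right, e, e']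
      calc c * w * (c' * w') = c * (w * c') * w' := by group
        _ = c * (c' * w) * w' := by rw [mem_center_iff.1 hc2' w]
        _ = _ := by group
    · intro s s'
      refine AddMonoidHom.ext fun t => ?_
      change Additive.ofMul (⟨⁅x (s + s'), x t⁆ * (m (s + s') t)⁻¹, hcen _ _⟩ : center Γ) =
        Additive.ofMul (⟨⁅x s, x t⁆ * (m s t)⁻¹, hcen _ _⟩ : center Γ) +
        Additive.ofMul (⟨⁅x s', x t⁆ * (m s' t)⁻¹, hcen _ _⟩ : center Γ)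
      rw [← ofMul_mul]
      congr 1
      apply Subtype.ext
      show ⁅x (s + s'), x t⁆ * (m (s + s') t)⁻¹ = (⁅x s, x t⁆ * (m s t)⁻¹) * (⁅x s', x t⁆ * (m s' t)⁻¹)
      obtain ⟨c, w, hc1, hc2, hw, e, ec⟩ := hdec s t
      obtain ⟨c', w', hc1', hc2', hw', e', ec'⟩ := hdec s' t
      rw [← ec, ← ec']
      apply huniq (s + s') t (c * c') (w' * w) (by rw [map_mul, hc1, hc1', mul_one]) (mul_mem hw' hw)
      obtain ⟨n, hn, en⟩ := add s s'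
      obtain ⟨k, hk, ek⟩ := hlift en
      have h1 : ⁅x (s + s'), x t⁆ = ⁅x s * x s', x t⁆ := by
        have h2 : x (s + s') = x s * x s' * (n * k) := by rw [ek]; group
        have h3 : x t = x t * 1 := (mul_one _).symm
        rw [h2]
        conv_lhs => rw [h3]
        apply comm_abs _ (by rw [mul_one, one_mul]) (by rw [mul_one, one_mul])
        exact comm_cen (cen t n hn) hk
      have h4 : ⁅x s * x s', x t⁆ = (x s * ⁅x s', x t⁆ * (x s)⁻¹) * ⁅x s, x t⁆ := by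
        simp only [commutatorElement_def]; group
      rw [h1, h4, hcomx s s' t, mul_inv_cancel_right, e, e']
      calc c' * w' * (c * w) = c' * (w' * c) * w := by group
        _ = c' * (c * w') * w := by rw [mem_center_iff.1 hc2 w']
        _ = (c' * c) * (w' * w) := by group
        _ = _ := by rw [mem_center_iff.1 hc2 c']
  have hB : B = 0 := by
    apply Schur.torus_form_zero B _ _ h4 h9
    · intro s
      apply Additive.toMul.injective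
      apply Subtype.ext
      show ⁅x s, x s⁆ * (m s s)⁻¹ = 1
      apply huniq s s 1 1 (map_one σ) (one_mem _)
      rw [commutatorElement_self, one_mul]
    · intro a ha s t
      obtain ⟨h, hh1, hh2⟩ := inv a ha
      obtain ⟨n, hn, en⟩ := hh2 s
      obtain ⟨n', hn', en'⟩ := hh2 t
      obtain ⟨k, hk, ek⟩ := hlift en
      obtain ⟨k', hk', ek'⟩ := hlift en'
      apply Additive.toMul.injective
      apply Subtype.ext
      show ⁅x (a * a * s), x (a * a * t)⁆ * (m (a * a * s) (a * a * t))⁻¹ = ⁅x s, x t⁆ * (m s t)⁻¹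
      obtain ⟨c, w, hc1, hc2, hw, e, ec⟩ := hdec s t
      rw [← ec]
      apply huniq _ _ c (h * w * h⁻¹) hc1 (hh1 w hw)
      have h5 : ⁅x (a * a * s), x (a * a * t)⁆ = ⁅x (a * a * s) * (n * k), x (a * a * t) * (n' * k')⁆ := by
        symm
        apply comm_abs
        · exact comm_cen (cen _ n hn) hk
        · calc n * k * (n' * k') = n * (k * n') * k' := by group
            _ = n * (n' * k) * k' := by rw [mem_center_iff.1 hk n']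
            _ = (n * n') * (k * k') := by group
            _ = (n' * n) * (k' * k) := by rw [cM n hn n' hn', mem_center_iff.1 hk' k]
            _ = n' * (n * k') * k := by group
            _ = n' * (k' * n) * k := by rw [mem_center_iff.1 hk' n]
            _ = _ := by group
        · exact comm_cen (cen _ n' hn') hk'
      have e1 : h * x s * h⁻¹ = x (a * a * s) * (n * k) := by rw [ek]; group
      have e2 : h * x t * h⁻¹ = x (a * a * t) * (n' * k') := by rw [ek']; group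
      rw [h5, ← e1, ← e2, ← Schur.comm_conj, e]
      calc h * (c * w) * h⁻¹ = (h * c) * w * h⁻¹ := by group
        _ = (c * h) * w * h⁻¹ := by rw [mem_center_iff.1 hc2 h]
        _ = _ := by group
  intro s t
  have h1 : ⁅x s, x t⁆ * (m s t)⁻¹ = 1 := by
    have h2 : B s t = 0 := by rw [hB]; rfl
    exact congrArg (fun z : Additive (center Γ) => ((Additive.toMul z : center Γ) : Γ)) h2
  rw [mul_inv_eq_one.1 h1]
  exact hm s t

/-- data for splitting the lift of a root subgroup -/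
structure SData (σ : Γ →* G) (Y0 : Subgroup G) where
  cen : σ.ker ≤ center Γ
  M : Subgroup Γ
  h : Γ
  hMY : ∀ m ∈ M, σ m ∈ Y0
  hM : ∀ m ∈ M, σ m = 1 → m = 1
  comM : ∀ y, σ y ∈ Y0 → ∀ m ∈ M, y * m = m * y
  comY : ∀ y y', σ y ∈ Y0 → σ y' ∈ Y0 → ⁅y, y'⁆ ∈ M
  hY : ∀ g ∈ Y0, σ h * g * (σ h)⁻¹ ∈ Y0
  hMh : ∀ m ∈ M, h * m * h⁻¹ ∈ M
  fpf : ∀ y, σ y ∈ Y0 → (∃ m ∈ M, σ ⁅h, y⁆ = σ m) → ∃ m ∈ M, σ y = σ m
  sur : ∀ g ∈ Y0, ∃ y, σ y ∈ Y0 ∧ ∃ m ∈ M, σ (⁅h, y⁆ * m) = g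

namespace SData

variable {σ : Γ →* G} {Y0 : Subgroup G} (D : SData σ Y0)

theorem hY' {y : Γ} (hy : σ y ∈ Y0) : σ (D.h * y * D.h⁻¹) ∈ Y0 := by
  rw [map_mul, map_mul, map_inv]; exact D.hY _ hy

theorem comm_mem {y : Γ} (hy : σ y ∈ Y0) : σ ⁅D.h, y⁆ ∈ Y0 := by
  rw [commutatorElement_def, map_mul, map_inv]
  exact mul_mem (D.hY' hy) (inv_mem hy)

theorem mul_aux {y y' : Γ} (hy : σ y ∈ Y0) (hy' : σ y' ∈ Y0) : ∃ c ∈ D.M, ⁅D.h, y⁆ * ⁅D.h, y'⁆ = ⁅D.h, y * y'⁆ * c := by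
  have h1 := D.comY y ⁅D.h, y'⁆ hy (D.comm_mem hy')
  refine ⟨⁅y, ⁅D.h, y'⁆⁆⁻¹, inv_mem h1, ?_⟩
  have h2 := D.comM _ (D.comm_mem hy') _ h1
  have h3 : ⁅D.h, y * y'⁆ = ⁅D.h, y⁆ * (⁅y, ⁅D.h, y'⁆⁆ * ⁅D.h, y'⁆) := by
    simp only [commutatorElement_def]; group
  rw [h3, ← h2]; group

/-- the complement -/
def N : Subgroup Γ where
  carrier := {g | ∃ y, σ y ∈ Y0 ∧ ∃ m ∈ D.M, g = ⁅D.h, y⁆ * m}
  one_mem' := ⟨1, by rw [map_one]; exact one_mem _, 1, one_mem _, by rw [commutatorElement_one_right, one_mul]⟩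
  mul_mem' := by
    rintro _ _ ⟨y, hy, m, hm, rfl⟩ ⟨y', hy', m', hm', rfl⟩
    obtain ⟨c, hc, e⟩ := D.mul_aux hy hy'
    refine ⟨y * y', by rw [map_mul]; exact mul_mem hy hy', c * (m * m'), mul_mem hc (mul_mem hm hm'), ?_⟩
    have h1 := D.comM _ (D.comm_mem hy') _ hm
    calc ⁅D.h, y⁆ * m * (⁅D.h, y'⁆ * m') = ⁅D.h, y⁆ * (m * ⁅D.h, y'⁆) * m' := by group
      _ = ⁅D.h, y⁆ * (⁅D.h, y'⁆ * m) * m' := by rw [h1]
      _ = (⁅D.h, y⁆ * ⁅D.h, y'⁆) * (m * m') := by group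
      _ = _ := by rw [e]; group
  inv_mem' := by
    rintro _ ⟨y, hy, m, hm, rfl⟩
    obtain ⟨c, hc, e⟩ := D.mul_aux hy (y' := y⁻¹) (by rw [map_inv]; exact inv_mem hy)
    rw [mul_inv_cancel, commutatorElement_one_right, one_mul] at e
    refine ⟨y⁻¹, by rw [map_inv]; exact inv_mem hy, c⁻¹ * m⁻¹, mul_mem (inv_mem hc) (inv_mem hm), ?_⟩
    have h1 := D.comM _ (D.comm_mem hy) _ hm
    calc (⁅D.h, y⁆ * m)⁻¹ = (m * ⁅D.h, y⁆)⁻¹ := by rw [h1]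
      _ = ⁅D.h, y⁻¹⁆ * ((⁅D.h, y⁆ * ⁅D.h, y⁻¹⁆)⁻¹ * m⁻¹) := by
        generalize ⁅D.h, y⁆ = a
        generalize ⁅D.h, y⁻¹⁆ = b
        group
      _ = _ := by rw [e]

theorem mem_N {g : Γ} : g ∈ D.N ↔ ∃ y, σ y ∈ Y0 ∧ ∃ m ∈ D.M, g = ⁅D.h, y⁆ * m := Iff.rfl

theorem N_map {g : Γ} (hg : g ∈ D.N) : σ g ∈ Y0 := by
  obtain ⟨y, hy, m, hm, rfl⟩ := hg
  rw [map_mul]; exact mul_mem (D.comm_mem hy) (D.hMY m hm)

theorem N_sur {g : G} (hg : g ∈ Y0) : ∃ x ∈ D.N, σ x = g := by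
  obtain ⟨y, hy, m, hm, e⟩ := D.sur g hg
  exact ⟨_, ⟨y, hy, m, hm, rfl⟩, e⟩

theorem M_le {m : Γ} (hm : m ∈ D.M) : m ∈ D.N :=
  ⟨1, by rw [map_one]; exact one_mem _, m, hm, by rw [commutatorElement_one_right, one_mul]⟩

theorem N_inj {g : Γ} (hg : g ∈ D.N) (h1 : σ g = 1) : g = 1 := by
  obtain ⟨y, hy, m, hm, rfl⟩ := hg
  rw [map_mul] at h1
  obtain ⟨m1, hm1, e⟩ := D.fpf y hy ⟨m⁻¹, inv_mem hm, by rw [map_inv]; exact eq_inv_of_mul_eq_one_left h1⟩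
  have h2 : ⁅D.h, y⁆ = ⁅D.h, m1⁆ := Schur.comm_congr D.cen rfl e
  have h3 : ⁅D.h, y⁆ ∈ D.M := by
    rw [h2, commutatorElement_def]
    exact mul_mem (D.hMh _ hm1) (inv_mem hm1)
  exact D.hM _ (mul_mem h3 hm) (by rw [map_mul]; exact h1)

theorem N_conj {k : Γ} (hk : σ k * σ D.h = σ D.h * σ k) (hkY : ∀ g ∈ Y0, σ k * g * (σ k)⁻¹ ∈ Y0)
    (hkM : ∀ m ∈ D.M, k * m * k⁻¹ ∈ D.M) {g : Γ} (hg : g ∈ D.N) : k * g * k⁻¹ ∈ D.N := by
  obtain ⟨y, hy, m, hm, rfl⟩ := hg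
  refine ⟨k * y * k⁻¹, by rw [map_mul, map_mul, map_inv]; exact hkY _ hy, k * m * k⁻¹, hkM m hm, ?_⟩
  have h1 : ⁅D.h, k * y * k⁻¹⁆ = ⁅k * D.h * k⁻¹, k * y * k⁻¹⁆ := by
    apply Schur.comm_congr D.cen _ rfl
    rw [map_mul, map_mul, map_inv, hk, mul_inv_cancel_right]
  rw [h1, ← Schur.comm_conj]; group

end SData

end Cfsg.Agent.MulF4
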