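import Cfsg.Agent.MulF4.Rel
import Cfsg.Agent.MulF4.Spl
import Cfsg.Agent.MulF4.Ext
import Cfsg.Agent.AutTF4.Main
import Cfsg.Agent.Schur.Basic

set_option autoImplicit false
set_option maxRecDepth 100000

/-!
The 2-part of the multiplier of the twisted groups of type F4.
-/

namespace Cfsg.Agent.MulF4

open Cfsg.Lie Cfsg.Agent.Chev Cfsg.Agent.ChevGrp Cfsg.Agent.ChevGrp.DData Cfsg.Agent.ChevWeyl Cfsg.Agent.ChevTw
  Cfsg.Agent.Tw3 Cfsg.Agent.ChevGrp.RGrp Cfsg.Agent.Tw4 Cfsg.Agent.AutTF4 Cfsg.Agent.AutChev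
open Subgroup
open scoped commutatorElement

theorem surj_comm {G : Type*} [Group G] {B : Subgroup G} [Finite B] {t : G} (htB : ∀ b ∈ B, t * b * t⁻¹ ∈ B)
    (h2 : ∀ b ∈ B, t * b * t⁻¹ = b → b = 1) {g : G} (hg : g ∈ B) : ∃ b ∈ B, ⁅t, b⁆ = g := by
  have hinj : Function.Injective (fun b : B => (⟨t * b * t⁻¹, htB b b.2⟩ * b⁻¹ : B)) := by
    intro y y' e
    have e1 : t * (y : G) * t⁻¹ * (y : G)⁻¹ = t * (y' : G) * t⁻¹ * (y' : G)⁻¹ := congrArg Subtype.val e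
    have e2 : t * ((y' : G)⁻¹ * y) * t⁻¹ = (y' : G)⁻¹ * y := by
      have e3 : t * (y : G) * t⁻¹ = t * (y' : G) * t⁻¹ * (y' : G)⁻¹ * y := by rw [← e1]; group
      calc t * ((y' : G)⁻¹ * y) * t⁻¹ = (t * (y' : G) * t⁻¹)⁻¹ * (t * (y : G) * t⁻¹) := by group
        _ = (t * (y' : G) * t⁻¹)⁻¹ * (t * (y' : G) * t⁻¹ * (y' : G)⁻¹ * y) := by rw [e3]
        _ = _ := by group
    have e4 := h2 _ (B.mul_mem (B.inv_mem y'.2) y.2) e2
    exact Subtype.ext (inv_mul_eq_one.1 e4).symm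
  obtain ⟨b, hb⟩ := (Finite.injective_iff_surjective.1 hinj) ⟨g, hg⟩
  exact ⟨b, b.2, congrArg Subtype.val hb⟩

variable {K : Type*} [Field K] (Z : Sg K)

/-- the centre of the second root subgroup -/
noncomputable def Z7 : Subgroup ↥(tF Z).G1 where
  carrier := {g | ∃ u, g = fp Z 0 u}
  one_mem' := ⟨0, (fp_zero Z).symm⟩
  mul_mem' := by
    rintro _ _ ⟨u, rfl⟩ ⟨u', rfl⟩
    exact ⟨u + u', fp_0 Z u u'⟩
  inv_mem' := by
    rintro _ ⟨u, rfl⟩
    refine ⟨u, ?_⟩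
    rw [inv_eq_iff_mul_eq_one, fp_0]
    have : u + u = 0 := by rw [← two_mul, Z.two, zero_mul]
    rw [this, fp_zero]

theorem mem_Z7 {g : ↥(tF Z).G1} : g ∈ Z7 Z ↔ ∃ u, g = fp Z 0 u := Iff.rfl

theorem Z7_le : Z7 Z ≤ (rtw (tF Z)).X 7 := by
  rintro _ ⟨u, rfl⟩
  exact (mem_p1 Z _).2 ⟨0, u, rfl⟩

/-- the first root subgroup as a homomorphism -/
noncomputable def epH : Multiplicative K →* ↥(tF Z).G1 where
  toFun t := ep Z t.toAdd
  map_one' := by
    rw [toAdd_one, ← S0_x]; exact (S0 Z).A.x_zero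
  map_mul' t u := by
    rw [toAdd_mul, ← S0_x, ← S0_x, ← S0_x]; exact (S0 Z).A.x_add _ _

/-- the centre of the second root subgroup as a homomorphism -/
noncomputable def zpH : Multiplicative K →* ↥(tF Z).G1 where
  toFun t := fp Z 0 t.toAdd
  map_one' := fp_zero Z
  map_mul' t u := by
    rw [toAdd_mul, fp_0]

section

variable {Γ : Type*} [Group Γ] {σ : Γ →* ↥(tF Z).G1} (hσ : Function.Surjective σ) (hc : σ.ker ≤ center Γ)
  [Fintype K] (h4 : 9 ≠ Fintype.card K) (h8 : 4 < Fintype.card K)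

include hσ hc h4 h8

theorem ep_comm {a b : Γ} (ha : σ a ∈ (rtw (tF Z)).X 0) (hb : σ b ∈ (rtw (tF Z)).X 0) : a * b = b * a := by
  obtain ⟨t, ht⟩ := (mem_p0 Z _).1 ha
  obtain ⟨u, hu⟩ := (mem_p0 Z _).1 hb
  refine Schur.root_lifts_commute hσ hc (epH Z) ?_ (by omega) (Ne.symm h4) a b ⟨Multiplicative.ofAdd t, ht.symm⟩
    ⟨Multiplicative.ofAdd u, hu.symm⟩
  intro c hc
  refine ⟨hh0 Z (Units.mk0 c hc), fun t => ?_⟩
  show hh0 Z (Units.mk0 c hc) * ep Z t * (hh0 Z (Units.mk0 c hc))⁻¹ = ep Z (c * c * t)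
  rw [hh0_ep, Units.val_mk0, sq]

theorem zp_comm {a b : Γ} (ha : σ a ∈ Z7 Z) (hb : σ b ∈ Z7 Z) : a * b = b * a := by
  obtain ⟨t, ht⟩ := ha
  obtain ⟨u, hu⟩ := hb
  refine Schur.root_lifts_commute hσ hc (zpH Z) ?_ (by omega) (Ne.symm h4) a b ⟨Multiplicative.ofAdd t, ht.symm⟩
    ⟨Multiplicative.ofAdd u, hu.symm⟩
  intro c hc
  obtain ⟨s, hs1, hs2⟩ := sq_theta Z (c * c)
  have hs0 := hs2 (mul_ne_zero hc hc)
  refine ⟨hh0 Z (Units.mk0 s hs0)⁻¹, fun t => ?_⟩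
  show hh0 Z (Units.mk0 s hs0)⁻¹ * fp Z 0 t * (hh0 Z (Units.mk0 s hs0)⁻¹)⁻¹ = fp Z 0 (c * c * t)
  rw [hh0_fp, mul_zero, Units.val_inv_eq_inv_val, Units.val_mk0, map_inv₀, ← mul_inv, inv_inv, hs1]

omit hσ hc h4 in
theorem exists_ne : ∃ x : Kˣ, x ≠ 1 := by
  classical
  by_contra h
  push Not at h
  have h1 : Fintype.card Kˣ ≤ 1 := Fintype.card_le_one_iff.2 fun a b => by rw [h a, h b]
  rw [Fintype.card_units] at h1
  omega

omit h4 h8 in
/-- lifts of adjacent root subgroups commute -/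
theorem lift_comm {x : Kˣ} (hx : x ≠ 1) {i j : Fin 16} (hi : (i : ℕ) < 8) (hj : (j : ℕ) < 8) (hij : i ≠ j)
    (hAB : ∀ a ∈ (rtw (tF Z)).X i, ∀ b ∈ (rtw (tF Z)).X j, a * b = b * a) {a b : Γ} (ha : σ a ∈ (rtw (tF Z)).X i)
    (hb : σ b ∈ (rtw (tF Z)).X j) : a * b = b * a := by
  obtain ⟨h1, h2⟩ := tk_act Z hx hi hj hij
  have : Finite ↥(tF Z).G1 := inferInstance
  exact comm_lift hσ hc (A := (rtw (tF Z)).X i) (B := (rtw (tF Z)).X j) hAB h1
    (fun b hb => (rtw (tF Z)).H_X _ (tk_H Z i x) j b hb) h2 ha hb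

omit hσ hc h4 h8 [Fintype K] in
theorem adj_comm {i j : Fin 16} (h : i < j) (hj : (j : ℕ) < 8) (hij : (j : ℕ) = i + 1) :
    ∀ a ∈ (rtw (tF Z)).X i, ∀ b ∈ (rtw (tF Z)).X j, a * b = b * a := by
  intro a ha b hb
  have h1 := comm16 (rtw (tF Z)) h hj ha hb
  have h2 : gen (rtw (tF Z)).X (fun r => i < r ∧ r < j) = ⊥ := by
    rw [eq_bot_iff, gen_le]
    intro r hr
    have h3 := hr.1; have h4 := hr.2
    rw [Fin.lt_def] at h3 h4
    omega
  rw [h2, mem_bot, commutatorElement_def, mul_inv_eq_one, mul_inv_eq_iff_eq_mul] at h1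
  exact h1

/-- the lifts of the centre of a root subgroup are central -/
theorem one_comm {y z : Γ} (hy : σ y ∈ (rtw (tF Z)).X 1) (hz : σ z ∈ (rtw (tF Z)).X 1) (hz2 : σ z * σ z = 1) :
    y * z = z * y := by
  obtain ⟨x, hx⟩ := exists_ne (K := K) h8
  obtain ⟨a, ha, b, hb, e⟩ := comm_form Z hz hz2
  obtain ⟨a, rfl⟩ := hσ a
  obtain ⟨b, rfl⟩ := hσ b
  rw [← map_commutatorElement] at e
  have hk : ∃ k ∈ center Γ, z = ⁅a, b⁆ * k :=
    ⟨⁅a, b⁆⁻¹ * z, hc (by rw [MonoidHom.mem_ker, map_mul, map_inv, e, inv_mul_cancel]), by group⟩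
  obtain ⟨k, hk, ez⟩ := hk
  have c01 : ∀ {p q : Γ}, σ p ∈ (rtw (tF Z)).X 0 → σ q ∈ (rtw (tF Z)).X 1 → p * q = q * p := fun hp hq =>
    lift_comm Z hσ hc hx (i := 0) (j := 1) (by decide) (by decide) (by decide)
      (adj_comm Z (by decide) (by decide) (by decide)) hp hq
  have c02 : ∀ {p q : Γ}, σ p ∈ (rtw (tF Z)).X 0 → σ q ∈ (rtw (tF Z)).X 2 → p * q = q * p := fun hp hq =>
    lift_comm Z hσ hc hx (i := 0) (j := 2) (by decide) (by decide) (by decide)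
      (fun p hp q hq => comm_cls Z (A := 0) (B := 2) cmC02 hp hq) hp hq
  have c12 : ∀ {p q : Γ}, σ p ∈ (rtw (tF Z)).X 1 → σ q ∈ (rtw (tF Z)).X 2 → p * q = q * p := fun hp hq =>
    lift_comm Z hσ hc hx (i := 1) (j := 2) (by decide) (by decide) (by decide)
      (adj_comm Z (by decide) (by decide) (by decide)) hp hq
  -- the commutator `[y, a]`
  have hcm : σ ⁅y, a⁆ ∈ (rtw (tF Z)).X 2 := by
    have h1 := comm16 (rtw (tF Z)) (i := 1) (j := 3) (by decide) (by decide) hy ha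
    rw [← map_commutatorElement] at h1
    have h2 : gen (rtw (tF Z)).X (fun r => (1 : Fin 16) < r ∧ r < 3) ≤ (rtw (tF Z)).X 2 := by
      rw [gen_le]
      intro r hr
      have h3 := hr.1; have h4 := hr.2
      have h5 : r = 2 := by
        rw [Fin.lt_def] at h3 h4
        apply Fin.ext
        have e1 : ((1 : Fin 16) : ℕ) = 1 := rfl
        have e3 : ((3 : Fin 16) : ℕ) = 3 := rfl
        have e2 : ((2 : Fin 16) : ℕ) = 2 := rfl
        omega
      rw [h5]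
    exact h2 h1
  have hyb : y * b * y⁻¹ = b := by rw [← c01 hb hy, mul_inv_cancel_right]
  have hcb : ⁅y, a⁆ * b = b * ⁅y, a⁆ := (c02 hb hcm).symm
  have hcz : ⁅y, a⁆ * ⁅a, b⁆ = ⁅a, b⁆ * ⁅y, a⁆ := (c12 (by rw [← e]; exact hz) hcm).symm
  have h3 : y * ⁅a, b⁆ * y⁻¹ = ⁅a, b⁆ := by
    have e1 : y * ⁅a, b⁆ * y⁻¹ = ⁅y * a * y⁻¹, y * b * y⁻¹⁆ := Schur.comm_conj y a b
    have e2 : y * a * y⁻¹ = ⁅y, a⁆ * a := by rw [commutatorElement_def]; group
    have e3 : ⁅⁅y, a⁆ * a, b⁆ = ⁅y, a⁆ * ⁅a, b⁆ * ⁅y, a⁆⁻¹ * ⁅⁅y, a⁆, b⁆ := by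
      generalize ⁅y, a⁆ = w
      simp only [commutatorElement_def]; group
    have e4 : ⁅⁅y, a⁆, b⁆ = 1 := by rw [commutatorElement_def, hcb]; group
    rw [e1, hyb, e2, e3, e4, mul_one, hcz, mul_inv_cancel_right]
  have h4 : y * ⁅a, b⁆ = ⁅a, b⁆ * y := mul_inv_eq_iff_eq_mul.1 h3
  rw [ez, ← mul_assoc, h4, mul_assoc, mem_center_iff.1 hk y, mul_assoc]

theorem seven_comm {y z : Γ} (hy : σ y ∈ (rtw (tF Z)).X 7) (hz : σ z ∈ Z7 Z) : y * z = z * y := by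
  obtain ⟨ν, hν⟩ := hσ ((rtw (tF Z)).nn 0)
  have hw : S16.w 0 7 = 1 := by decide +kernel
  have h1 : σ (ν * y * ν⁻¹) ∈ (rtw (tF Z)).X 1 := by
    rw [map_mul, map_mul, map_inv, hν, ← hw]
    exact (rtw (tF Z)).nn_X 0 7 _ hy
  have h2 : σ (ν * z * ν⁻¹) ∈ (rtw (tF Z)).X 1 := by
    rw [map_mul, map_mul, map_inv, hν, ← hw]
    exact (rtw (tF Z)).nn_X 0 7 _ (Z7_le Z hz)
  have h3 : σ (ν * z * ν⁻¹) * σ (ν * z * ν⁻¹) = 1 := by
    obtain ⟨u, hu⟩ := hz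
    have e1 : σ (ν * z * ν⁻¹) * σ (ν * z * ν⁻¹) = σ ν * (σ z * σ z) * (σ ν)⁻¹ := by
      rw [map_mul, map_mul, map_inv]; group
    have e2 : u + u = 0 := by rw [← two_mul, Z.two, zero_mul]
    rw [e1, hu, fp_0, e2, fp_zero, mul_one, mul_inv_cancel]
  have h4 := one_comm Z hσ hc h4 h8 h1 h2 h3
  have h5 : ν * (y * z) * ν⁻¹ = ν * (z * y) * ν⁻¹ := by
    calc ν * (y * z) * ν⁻¹ = (ν * y * ν⁻¹) * (ν * z * ν⁻¹) := by group
      _ = (ν * z * ν⁻¹) * (ν * y * ν⁻¹) := h4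
      _ = _ := by group
  exact mul_left_cancel (mul_right_cancel h5)

omit hσ hc h4 h8 [Fintype K] in
/-- data for the torus elements -/
theorem Z7_H {h : ↥(tF Z).G1} (hh : h ∈ (rtw (tF Z)).H) {g : ↥(tF Z).G1} (hg : g ∈ Z7 Z) : h * g * h⁻¹ ∈ Z7 Z := by
  obtain ⟨u, rfl⟩ := hg
  obtain ⟨t, v, e⟩ := (mem_p1 Z _).1 ((rtw (tF Z)).H_X h hh 7 _ ((mem_p1 Z _).2 ⟨0, u, rfl⟩))
  have e2 : u + u = 0 := by rw [← two_mul, Z.two, zero_mul]
  have h1 : fp Z t v * fp Z t v = 1 := by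
    rw [← e]
    calc h * fp Z 0 u * h⁻¹ * (h * fp Z 0 u * h⁻¹) = h * (fp Z 0 u * fp Z 0 u) * h⁻¹ := by group
      _ = 1 := by rw [fp_0, e2, fp_zero, mul_one, mul_inv_cancel]
  have h2 := fp_sq_one Z h1
  subst h2
  exact ⟨v, e⟩

/-- splittings invariant under the torus -/
structure Spt {Γ G : Type*} [Group Γ] [Group G] (σ : Γ →* G) (H Y0 : Subgroup G) (N : Subgroup Γ) : Prop where
  map : ∀ y ∈ N, σ y ∈ Y0
  sur : ∀ g ∈ Y0, ∃ y ∈ N, σ y = g
  inj : ∀ y ∈ N, σ y = 1 → y = 1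
  nrm : ∀ k, σ k ∈ H → ∀ y ∈ N, k * y * k⁻¹ ∈ N

theorem spt0 : ∃ N, Spt σ (rtw (tF Z)).H ((rtw (tF Z)).X 0) N := by
  obtain ⟨x, hx⟩ := exists_ne (K := K) h8
  obtain ⟨h, hh⟩ := hσ (tk Z 7 x)
  have : Finite ↥(tF Z).G1 := inferInstance
  obtain ⟨-, hf⟩ := tk_act Z hx (i := 7) (j := 0) (by decide) (by decide) (by decide)
  have hY : ∀ g ∈ (rtw (tF Z)).X 0, tk Z 7 x * g * (tk Z 7 x)⁻¹ ∈ (rtw (tF Z)).X 0 := fun g hg =>
    (rtw (tF Z)).H_X _ (tk_H Z 7 x) 0 g hg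
  let D : SData σ ((rtw (tF Z)).X 0) :=
    { cen := hc
      M := ⊥
      h := h
      hMY := fun m hm => by rw [mem_bot.1 hm, map_one]; exact one_mem _
      hM := fun m hm _ => mem_bot.1 hm
      comM := fun y _ m hm => by rw [mem_bot.1 hm, mul_one, one_mul]
      comY := fun y y' hy hy' => by
        rw [mem_bot, commutatorElement_def, ep_comm Z hσ hc h4 h8 hy hy']; group
      hY := fun g hg => by rw [hh]; exact hY g hg
      hMh := fun m hm => by rw [mem_bot.1 hm, mul_one, mul_inv_cancel]; exact one_mem _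
      fpf := fun y hy ⟨m, hm, e⟩ => by
        refine ⟨1, one_mem _, ?_⟩
        rw [mem_bot.1 hm, map_one, map_commutatorElement, hh, commutatorElement_def, mul_inv_eq_one] at e
        rw [map_one]
        exact hf _ hy e
      sur := fun g hg => by
        obtain ⟨b, hb, e⟩ := surj_comm hY hf hg
        obtain ⟨y, rfl⟩ := hσ b
        refine ⟨y, hb, 1, one_mem _, ?_⟩
        rw [mul_one, map_commutatorElement, hh, e] }
  exact ⟨D.N, fun y hy => D.N_map hy, fun g hg => D.N_sur hg, fun y hy h1 => D.N_inj hy h1,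
    fun k hk y hy => D.N_conj (k := k) (by rw [show D.h = h from rfl, hh]; exact H_comm Z hk (tk_H Z 7 x))
      (fun g hg => (rtw (tF Z)).H_X _ hk 0 g hg)
      (fun m hm => by rw [mem_bot.1 hm, mul_one, mul_inv_cancel]; exact one_mem _) hy⟩

theorem sptZ : ∃ N, Spt σ (rtw (tF Z)).H (Z7 Z) N := by
  obtain ⟨x, hx⟩ := exists_ne (K := K) h8
  obtain ⟨h, hh⟩ := hσ (tk Z 0 x)
  have : Finite ↥(tF Z).G1 := inferInstance
  obtain ⟨-, hf⟩ := tk_act Z hx (i := 0) (j := 7) (by decide) (by decide) (by decide)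
  have hY : ∀ g ∈ Z7 Z, tk Z 0 x * g * (tk Z 0 x)⁻¹ ∈ Z7 Z := fun g hg => Z7_H Z (tk_H Z 0 x) hg
  have hf' : ∀ b ∈ Z7 Z, tk Z 0 x * b * (tk Z 0 x)⁻¹ = b → b = 1 := fun b hb e => hf b (Z7_le Z hb) e
  let D : SData σ (Z7 Z) :=
    { cen := hc
      M := ⊥
      h := h
      hMY := fun m hm => by rw [mem_bot.1 hm, map_one]; exact one_mem _
      hM := fun m hm _ => mem_bot.1 hm
      comM := fun y _ m hm => by rw [mem_bot.1 hm, mul_one, one_mul]
      comY := fun y y' hy hy' => by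
        rw [mem_bot, commutatorElement_def, zp_comm Z hσ hc h4 h8 hy hy']; group
      hY := fun g hg => by rw [hh]; exact hY g hg
      hMh := fun m hm => by rw [mem_bot.1 hm, mul_one, mul_inv_cancel]; exact one_mem _
      fpf := fun y hy ⟨m, hm, e⟩ => by
        refine ⟨1, one_mem _, ?_⟩
        rw [mem_bot.1 hm, map_one, map_commutatorElement, hh, commutatorElement_def, mul_inv_eq_one] at e
        rw [map_one]
        exact hf' _ hy e
      sur := fun g hg => by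
        obtain ⟨b, hb, e⟩ := surj_comm hY hf' hg
        obtain ⟨y, rfl⟩ := hσ b
        refine ⟨y, hb, 1, one_mem _, ?_⟩
        rw [mul_one, map_commutatorElement, hh, e] }
  exact ⟨D.N, fun y hy => D.N_map hy, fun g hg => D.N_sur hg, fun y hy h1 => D.N_inj hy h1,
    fun k hk y hy => D.N_conj (k := k) (by rw [show D.h = h from rfl, hh]; exact H_comm Z hk (tk_H Z 0 x))
      (fun g hg => Z7_H Z hk hg)
      (fun m hm => by rw [mem_bot.1 hm, mul_one, mul_inv_cancel]; exact one_mem _) hy⟩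

theorem spt7 : ∃ N, Spt σ (rtw (tF Z)).H ((rtw (tF Z)).X 7) N := by
  obtain ⟨x, hx⟩ := exists_ne (K := K) h8
  obtain ⟨M, SM⟩ := sptZ Z hσ hc h4 h8
  have : Finite ↥(tF Z).G1 := inferInstance
  obtain ⟨-, hf⟩ := tk_act Z hx (i := 0) (j := 7) (by decide) (by decide) (by decide)
  have comM : ∀ y, σ y ∈ (rtw (tF Z)).X 7 → ∀ m ∈ M, y * m = m * y := fun y hy m hm =>
    seven_comm Z hσ hc h4 h8 hy (SM.map m hm)
  have hlift : ∀ {a b : Γ}, σ a = σ b → ∃ k, k ∈ center Γ ∧ a = b * k := by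
    intro a b h
    exact ⟨b⁻¹ * a, hc (by rw [MonoidHom.mem_ker, map_mul, map_inv, h, inv_mul_cancel]), by group⟩
  -- the commutator form
  choose s hs using hσ
  have hs7 : ∀ t, σ (s (fp Z t 0)) ∈ (rtw (tF Z)).X 7 := fun t => by rw [hs]; exact (mem_p1 Z _).2 ⟨t, 0, rfl⟩
  have hmix : ∀ t u, ⁅s (fp Z t 0), s (fp Z u 0)⁆ ∈ M := by
    refine mixed (F := K) (by omega) (Ne.symm h4) hc M SM.inj
      (fun m hm m' hm' => comM m (Z7_le Z (SM.map m hm)) m' hm') (fun t => s (fp Z t 0)) (fun t m hm => comM _ (hs7 t) m hm)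
      ?_ ?_ ?_
    · intro t u
      have h1 : σ ⁅s (fp Z t 0), s (fp Z u 0)⁆ ∈ Z7 Z := by
        rw [map_commutatorElement, hs, hs, mem_Z7]
        refine ⟨Z.θ t * u + Z.θ u * t, ?_⟩
        rw [commutatorElement_def, mul_inv_eq_iff_eq_mul, mul_inv_eq_iff_eq_mul, fp_mul, fp_mul, fp_mul]
        have h2 := Z.two
        congr 1
        · ring
        · simp only [map_zero, map_add]
          linear_combination (- Z.θ u * t) * h2
      obtain ⟨m, hm, e⟩ := SM.sur _ h1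
      exact ⟨m, hm, e.symm⟩
    · intro t u
      obtain ⟨m, hm, e⟩ := SM.sur _ ⟨Z.θ t * u, rfl⟩
      refine ⟨m, hm, ?_⟩
      rw [map_mul, map_mul, hs, hs, hs, e, fp_mul, fp_mul]
      have h2 := Z.two
      congr 1
      · ring
      · rw [map_add]
        linear_combination (- Z.θ t * u) * h2
    · intro c hc0
      refine ⟨s (hh0 Z (Units.mk0 (c * c) (mul_ne_zero hc0 hc0))⁻¹), fun m hm => SM.nrm _ (by rw [hs]; exact hh0_H Z _) m hm,
        fun t => ⟨1, one_mem _, ?_⟩⟩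
      rw [map_mul, map_mul, map_inv, map_mul, map_one, hs, hs, hs, hh0_fp, mul_zero, mul_one, Units.val_inv_eq_inv_val,
        Units.val_mk0, inv_inv]
  have comY : ∀ y y', σ y ∈ (rtw (tF Z)).X 7 → σ y' ∈ (rtw (tF Z)).X 7 → ⁅y, y'⁆ ∈ M := by
    have hdec : ∀ y, σ y ∈ (rtw (tF Z)).X 7 → ∃ t, ∃ m ∈ M, ∃ k ∈ center Γ, y = s (fp Z t 0) * (m * k) := by
      intro y hy
      obtain ⟨t, u, e⟩ := (mem_p1 Z _).1 hy
      obtain ⟨m, hm, em⟩ := SM.sur _ ⟨u, rfl⟩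
      obtain ⟨k, hk, ek⟩ := hlift (a := y) (b := s (fp Z t 0) * m) (by rw [map_mul, hs, em, fp_split, zero_add, e])
      exact ⟨t, m, hm, k, hk, by rw [ek, mul_assoc]⟩
    intro y y' hy hy'
    obtain ⟨t, m, hm, k, hk, rfl⟩ := hdec y hy
    obtain ⟨t', m', hm', k', hk', rfl⟩ := hdec y' hy'
    rw [comm_abs]
    · exact hmix t t'
    · exact comm_cen (comM _ (hs7 t') m hm) hk
    · have h1 : m * (m' * k') = m' * k' * m := comm_cen (comM m (Z7_le Z (SM.map m hm)) m' hm') hk'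
      have h2 : k * (m' * k') = m' * k' * k := (mem_center_iff.1 hk _).symm
      rw [mul_assoc, h2, ← mul_assoc, h1, mul_assoc]
    · exact comm_cen (comM _ (hs7 t) m' hm') hk'
  have hY : ∀ g ∈ (rtw (tF Z)).X 7, tk Z 0 x * g * (tk Z 0 x)⁻¹ ∈ (rtw (tF Z)).X 7 := fun g hg =>
    (rtw (tF Z)).H_X _ (tk_H Z 0 x) 7 g hg
  have hh := hs (tk Z 0 x)
  set h := s (tk Z 0 x) with hdef
  have hMh : ∀ k, σ k ∈ (rtw (tF Z)).H → ∀ m ∈ M, k * m * k⁻¹ ∈ M := SM.nrm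
  -- the action on the first coordinate
  have hne : chv Z 7 (pw Z x (-(chiT 0).2)) (pw Z x (chiT 0).1) ≠ 1 := by
    rw [chv_ker]
    intro h
    apply hx
    obtain ⟨k, -, hk⟩ := detT_ne 0 (by norm_num) 7 (by norm_num) (by norm_num)
    exact pw_ne Z hk h
  let D : SData σ ((rtw (tF Z)).X 7) :=
    { cen := hc
      M := M
      h := h
      hMY := fun m hm => Z7_le Z (SM.map m hm)
      hM := SM.inj
      comM := comM
      comY := comY
      hY := fun g hg => by rw [hh]; exact hY g hg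
      hMh := fun m hm => hMh h (by rw [hh]; exact tk_H Z 0 x) m hm
      fpf := fun y hy ⟨m, hm, e⟩ => by
        obtain ⟨t, u, e1⟩ := (mem_p1 Z _).1 hy
        obtain ⟨v, e2⟩ := SM.map m hm
        rw [map_commutatorElement, hh, e1, e2, commutatorElement_def, mul_inv_eq_iff_eq_mul] at e
        unfold tk at e
        rw [tt_fp, fp_mul] at e
        have e3 := (fp_inj Z e).1
        rw [zero_add] at e3
        have ht : t = 0 := by
          by_contra ht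
          apply hne
          apply Units.ext
          exact mul_right_cancel₀ ht (by rw [Units.val_one, one_mul]; exact e3)
        subst ht
        obtain ⟨m', hm', em⟩ := SM.sur _ ⟨u, rfl⟩
        exact ⟨m', hm', by rw [e1, em]⟩
      sur := fun g hg => by
        obtain ⟨b, hb, e⟩ := surj_comm hY hf hg
        refine ⟨s b, by rw [hs]; exact hb, 1, one_mem _, ?_⟩
        rw [mul_one, map_commutatorElement, hh, hs, e] }
  exact ⟨D.N, fun y hy => D.N_map hy, fun g hg => D.N_sur hg, fun y hy h1 => D.N_inj hy h1,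
    fun k hk y hy => D.N_conj (k := k) (by rw [show D.h = h from rfl, hh]; exact H_comm Z hk (tk_H Z 0 x))
      (fun g hg => (rtw (tF Z)).H_X _ hk 7 g hg)
      (fun m hm => hMh k hk m hm) hy⟩

end

end Cfsg.Agent.MulF4
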