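import Cfsg.Agent.MulF4.Lev

set_option autoImplicit false
set_option maxRecDepth 100000

/-!
The action of the rank one subgroup of Suzuki type on the unipotent radical.
-/

namespace Cfsg.Agent.MulF4

open Cfsg.Lie Cfsg.Agent.Chev Cfsg.Agent.ChevGrp Cfsg.Agent.ChevGrp.DData Cfsg.Agent.ChevWeyl Cfsg.Agent.ChevTw
  Cfsg.Agent.Tw3 Cfsg.Agent.ChevGrp.RGrp Cfsg.Agent.Tw4 Cfsg.Agent.AutTF4 Cfsg.Agent.AutChev
open Subgroup
open scoped commutatorElement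

/-- a free action on the nontrivial elements -/
theorem dvd_of_free {A G : Type*} [Group A] [Finite A] [Group G] (t : A →* G) (V : Subgroup G) [Finite V]
    (hV : ∀ a, ∀ v ∈ V, t a * v * (t a)⁻¹ ∈ V) (hf : ∀ a, a ≠ 1 → ∀ v ∈ V, t a * v * (t a)⁻¹ = v → v = 1) :
    Nat.card A ∣ Nat.card V - 1 := by
  classical
  let _ : MulAction A {v : V // ¬ v = 1} :=
    { smul := fun a v => ⟨⟨t a * ((v : V) : G) * (t a)⁻¹, hV a _ v.1.2⟩, by
        intro h
        apply v.2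
        have h1 : t a * ((v : V) : G) * (t a)⁻¹ = 1 := congrArg Subtype.val h
        exact Subtype.ext (conj_eq_one_iff.1 h1)⟩
      one_smul := fun v => by
        apply Subtype.ext; apply Subtype.ext
        show t 1 * ((v : V) : G) * (t 1)⁻¹ = _
        rw [map_one, one_mul, inv_one, mul_one]
      mul_smul := fun a b v => by
        apply Subtype.ext; apply Subtype.ext
        show t (a * b) * ((v : V) : G) * (t (a * b))⁻¹ = t a * (t b * ((v : V) : G) * (t b)⁻¹) * (t a)⁻¹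
        rw [map_mul]; group }
  have h1 : ∀ b : {v : V // ¬ v = 1}, MulAction.stabilizer A b = ⊥ := by
    intro b
    rw [eq_bot_iff]
    intro a ha
    rw [mem_bot]
    by_contra hne
    apply b.2
    have h2 : t a * ((b : V) : G) * (t a)⁻¹ = ((b : V) : G) := congrArg (fun v : {v : V // ¬ v = 1} => ((v : V) : G)) ha
    exact Subtype.ext (hf a hne _ b.1.2 h2)
  have h2 : Nat.card A ∣ Nat.card {v : V // ¬ v = 1} := by
    rw [Nat.card_congr (MulAction.selfEquivOrbitsQuotientProd h1), Nat.card_prod]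
    exact Dvd.intro_left _ rfl
  have h3 : Nat.card V = Nat.card {v : V // v = 1} + Nat.card {v : V // ¬ v = 1} := by
    rw [← Nat.card_sum]
    exact Nat.card_congr (Equiv.sumCompl (fun v : V => v = 1)).symm
  have h4 : Nat.card {v : V // v = 1} = 1 := Nat.card_unique
  rw [h3, h4, Nat.add_sub_cancel_left]
  exact h2

theorem dvd_of_pow {n k : ℕ} (h : 2 ^ n - 1 ∣ 2 ^ k - 1) : n ∣ k := by
  have h1 := Nat.pow_sub_one_gcd_pow_sub_one 2 n k
  rw [Nat.gcd_eq_left h] at h1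
  have h2 : 2 ^ n = 2 ^ Nat.gcd n k := by
    have e1 : 1 ≤ 2 ^ n := Nat.one_le_two_pow
    have e2 : 1 ≤ 2 ^ Nat.gcd n k := Nat.one_le_two_pow
    omega
  have h3 := Nat.pow_right_injective le_rfl h2
  exact Nat.gcd_eq_left_iff_dvd.1 h3.symm

theorem norm_of_conj {G : Type*} [Group G] {A C : Subgroup G} (h : ∀ a ∈ A, ∀ c ∈ C, a * c * a⁻¹ ∈ C) :
    A ≤ normalizer (C : Set G) := by
  intro a ha
  rw [mem_normalizer_iff]
  intro c
  refine ⟨h a ha c, fun hc => ?_⟩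
  have h1 := h a⁻¹ (inv_mem ha) _ hc
  have e : a⁻¹ * (a * c * a⁻¹) * a⁻¹⁻¹ = c := by group
  rwa [e] at h1

variable {K : Type*} [Field K] (Z : Sg K)

/-- the series of the unipotent radical -/
noncomputable def Jn (k : ℕ) : Subgroup ↥(tF Z).G1 := gen (rtw (tF Z)).X (fun r => k ≤ (r : ℕ) ∧ (r : ℕ) < 7)

theorem Ui1_eq : (rtw (tF Z)).Ui 1 = Jn Z 0 := by
  have h : ∀ r : Fin 16, (pos16 r ∧ r ≠ p16 1) ↔ (0 ≤ (r : ℕ) ∧ (r : ℕ) < 7) := by decide +kernel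
  exact le_antisymm (gen_mono fun r hr => (h r).1 hr) (gen_mono fun r hr => (h r).2 hr)

theorem Jn_mono {k l : ℕ} (h : k ≤ l) : Jn Z l ≤ Jn Z k := gen_mono fun _ hr => ⟨h.trans hr.1, hr.2⟩

theorem X_le_Jn {r : Fin 16} {k : ℕ} (h : k ≤ (r : ℕ)) (h7 : (r : ℕ) < 7) : (rtw (tF Z)).X r ≤ Jn Z k :=
  le_gen (P := fun r : Fin 16 => k ≤ (r : ℕ) ∧ (r : ℕ) < 7) ⟨h, h7⟩

theorem Jn_le_U (k : ℕ) : Jn Z k ≤ (rtw (tF Z)).U := by
  have h : ∀ r : Fin 16, (r : ℕ) < 7 → pos16 r := by decide +kernel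
  exact gen_mono fun r hr => h r hr.2

theorem Jn_seven : Jn Z 7 = ⊥ := by
  rw [eq_bot_iff]
  unfold Jn
  rw [gen_le]
  intro r hr
  omega

/-- the conjugation by the preceding root subgroup -/
theorem Jn_conj {i : Fin 16} {x u : ↥(tF Z).G1} (hx : x ∈ (rtw (tF Z)).X i) (hu : u ∈ Jn Z (i + 1)) : x * u * x⁻¹ ∈ Jn Z (i + 1) := by
  refine conj_gen ?_ u hu
  intro r hr y hy
  have h1 := comm16 (rtw (tF Z)) (i := i) (j := r) (Fin.lt_def.2 (by omega)) (by omega) hx hy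
  have h2 : x * y * x⁻¹ = ⁅x, y⁆ * y := by rw [commutatorElement_def]; group
  rw [h2]
  refine mul_mem (gen_mono (fun s hs => ?_) h1) (X_le_Jn Z hr.1 hr.2 hy)
  have h3 := Fin.lt_def.1 hs.1
  have h4 := Fin.lt_def.1 hs.2
  omega

/-- the conjugation by the last root subgroup -/
theorem Jn_conj7 {k : ℕ} {x u : ↥(tF Z).G1} (hx : x ∈ (rtw (tF Z)).X 7) (hu : u ∈ Jn Z k) : x * u * x⁻¹ ∈ Jn Z k := by
  refine conj_gen ?_ u hu
  intro r hr y hy
  have h1 := comm16 (rtw (tF Z)) (i := r) (j := 7) (Fin.lt_def.2 hr.2) (by decide) hy hx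
  have h2 : x * y * x⁻¹ = ⁅y, x⁆⁻¹ * y := by rw [commutatorElement_def]; group
  rw [h2]
  refine mul_mem (inv_mem (gen_mono (fun s hs => ?_) h1)) (X_le_Jn Z hr.1 hr.2 hy)
  have h3 := Fin.lt_def.1 hs.1
  have h4 := Fin.lt_def.1 hs.2
  have h5 : ((7 : Fin 16) : ℕ) = 7 := rfl
  omega

/-- the factorisation -/
theorem Jn_dec {i : Fin 16} {u : ↥(tF Z).G1} (hu : u ∈ Jn Z i) :
    ∃ x ∈ (rtw (tF Z)).X i, ∃ v ∈ Jn Z (i + 1), u = x * v := by
  apply mem_sup_of_normalizes (fun a ha c hc => Jn_conj Z ha hc)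
  refine (gen_le.2 ?_) hu
  intro r hr
  by_cases h : r = i
  · rw [h]; exact le_sup_left
  · have h1 : (r : ℕ) ≠ i := fun e => h (Fin.ext e)
    exact (X_le_Jn Z (by omega) hr.2).trans le_sup_right

theorem Jn_dis {i : Fin 16} (hi : (i : ℕ) < 7) {x : ↥(tF Z).G1} (hx : x ∈ (rtw (tF Z)).X i) (h : x ∈ Jn Z (i + 1)) : x = 1 := by
  refine dis16 (rtw (tF Z)) (by omega) hx (gen_mono (fun s hs => ?_) h)
  exact ⟨Fin.lt_def.2 (by omega), by omega⟩

/-- the torus acts freely -/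
theorem fix_one {x : Kˣ} (hx : x ≠ 1) (d : ℕ) : ∀ k : ℕ, k + d = 7 → ∀ u ∈ Jn Z k, tk Z 7 x * u * (tk Z 7 x)⁻¹ = u → u = 1 := by
  induction d with
  | zero =>
    intro k hk u hu _
    have : k = 7 := by omega
    rw [this, Jn_seven] at hu
    exact mem_bot.1 hu
  | succ d ih =>
    intro k hk u hu e
    have hk16 : k < 16 := by omega
    obtain ⟨y, hy, v, hv, rfl⟩ := Jn_dec Z (i := ⟨k, hk16⟩) hu
    have hv' : tk Z 7 x * v * (tk Z 7 x)⁻¹ ∈ Jn Z (k + 1) := H_norm_gen _ _ (tk_H Z 7 x) _ hv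
    have hy' : tk Z 7 x * y * (tk Z 7 x)⁻¹ ∈ (rtw (tF Z)).X ⟨k, hk16⟩ := (rtw (tF Z)).H_X _ (tk_H Z 7 x) _ y hy
    have e1 : y⁻¹ * (tk Z 7 x * y * (tk Z 7 x)⁻¹) = v * (tk Z 7 x * v * (tk Z 7 x)⁻¹)⁻¹ := by
      rw [eq_mul_inv_iff_mul_eq, mul_assoc, inv_mul_eq_iff_eq_mul, ← e]; group
    have h1 : y⁻¹ * (tk Z 7 x * y * (tk Z 7 x)⁻¹) = 1 := by
      apply Jn_dis Z (i := ⟨k, hk16⟩) (by show k < 7; omega) (mul_mem (inv_mem hy) hy')
      rw [e1]; exact mul_mem hv (inv_mem hv')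
    have h2 : tk Z 7 x * y * (tk Z 7 x)⁻¹ = y := (inv_mul_eq_one.1 h1).symm
    have h3 : y = 1 := by
      have hk7 : (⟨k, hk16⟩ : Fin 16) ≠ 7 := fun h => by
        have h' : k = 7 := congrArg Fin.val h
        omega
      exact (tk_act Z hx (i := 7) (j := ⟨k, hk16⟩) (by decide) (by show k < 8; omega) hk7.symm).2 y hy h2
    rw [h3, one_mul] at e ⊢
    exact ih (k + 1) (by omega) v hv e

theorem tk_mul (i : ℕ) (x y : Kˣ) : tk Z i (x * y) = tk Z i x * tk Z i y := by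
  unfold tk
  rw [tt_mul, ← pw_mulx, ← pw_mulx]

/-- the torus as a homomorphism -/
noncomputable def tkh : Kˣ →* ↥(tF Z).G1 := MonoidHom.mk' (tk Z 7) (tk_mul Z 7)

/-- the torus centralizes the rank one subgroup -/
theorem tk_n1 (x : Kˣ) : (rtw (tF Z)).nn 1 * tk Z 7 x * ((rtw (tF Z)).nn 1)⁻¹ = tk Z 7 x := by
  unfold tk
  rw [nn1_tt]
  congr 1
  have h1 : psi Z (pw Z x (-(chiT 7).2)) * pw Z x (-(chiT 7).2) ^ 2 = pw Z (pw Z x (-(chiT 7).2)) ⟨2, 1⟩ := by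
    unfold pw
    rw [zpow_one, mul_comm]; rfl
  have h2 : (pw Z x (chiT 7).1)⁻¹ = pw Z x (-(chiT 7).1) := by
    rw [eq_comm, eq_inv_iff_mul_eq_one, ← pw_add, neg_add_cancel, pw_zero]
  rw [h1, h2, pw_pw, ← pw_add]
  congr 1

theorem tk_L1 {x : Kˣ} {y : ↥(tF Z).G1} (hy : y ∈ (rtw (tF Z)).Li 1) : y * tk Z 7 x = tk Z 7 x * y := by
  by_cases hx : x = 1
  · have h1 : tk Z 7 x = 1 := by
      have := (tkh Z).map_one
      rw [hx]; exact this
    rw [h1, one_mul, mul_one]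
  have h7 : ∀ g ∈ (rtw (tF Z)).X 7, g * tk Z 7 x = tk Z 7 x * g := by
    intro g hg
    have h1 := (tk_act Z hx (i := 7) (j := 0) (by decide) (by decide) (by decide)).1 g hg
    exact (mul_inv_eq_iff_eq_mul.1 h1).symm
  have h : (rtw (tF Z)).Li 1 ≤ centralizer {tk Z 7 x} := by
    refine sup_le ?_ ?_
    · intro g hg
      rw [mem_centralizer_singleton_iff]
      rw [p1_eq] at hg
      exact h7 g hg
    · intro g hg
      rw [mem_centralizer_singleton_iff]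
      have h1 : ((rtw (tF Z)).nn 1)⁻¹ * g * (rtw (tF Z)).nn 1 ∈ (rtw (tF Z)).X 7 := by
        have := (act_nn (R := rtw (tF Z)) 1).conj' hg
        rwa [S16.w_inv, S16.w_neg, S16.w_p, S16.neg_neg, p1_eq] at this
      have h2 := h7 _ h1
      have h3 := tk_n1 Z x
      rw [mul_inv_eq_iff_eq_mul] at h3
      set n := (rtw (tF Z)).nn 1
      set t := tk Z 7 x
      have h4 : n⁻¹ * t = t * n⁻¹ := by
        rw [inv_mul_eq_iff_eq_mul, ← mul_assoc, h3, mul_inv_cancel_right]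
      calc g * t = n * (n⁻¹ * g * n) * n⁻¹ * t := by group
        _ = n * ((n⁻¹ * g * n) * (n⁻¹ * t)) := by group
        _ = n * ((n⁻¹ * g * n) * t * n⁻¹) := by rw [h4]; group
        _ = (n * t) * (n⁻¹ * g * n) * n⁻¹ := by rw [h2]; group
        _ = t * g := by rw [h3]; group
  exact mem_centralizer_singleton_iff.1 (h hy)

section fin

variable [Fintype K] {n : ℕ} (hn : 1 ≤ n) (hK : Fintype.card K = 2 ^ n)

include hK in
theorem pU : IsPGroup 2 (rtw (tF Z)).U := by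
  have : Fact (Nat.Prime 2) := ⟨Nat.prime_two⟩
  apply IsPGroup.of_card (n := n * 12)
  rw [card_U', Nat.card_eq_fintype_card, hK, ← pow_mul]

include hK in
/-- invariant subgroups of the radical -/
theorem card_inv {V : Subgroup ↥(tF Z).G1} (hV : V ≤ Jn Z 0) (hT : ∀ x, ∀ v ∈ V, tk Z 7 x * v * (tk Z 7 x)⁻¹ ∈ V) :
    ∃ k, Nat.card V = Nat.card K ^ k := by
  have : Fact (Nat.Prime 2) := ⟨Nat.prime_two⟩
  have h1 : IsPGroup 2 V := (pU Z hK).to_le (hV.trans (Jn_le_U Z 0))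
  obtain ⟨m, hm⟩ := IsPGroup.iff_card.1 h1
  have h2 := dvd_of_free (tkh Z) V hT (fun a ha v hv e => fix_one Z ha 7 0 rfl v (hV hv) e)
  rw [hm, Nat.card_units, Nat.card_eq_fintype_card, hK] at h2
  obtain ⟨k, rfl⟩ := dvd_of_pow h2
  exact ⟨k, by rw [hm, Nat.card_eq_fintype_card, hK, pow_mul]⟩

include hn hK in
theorem two_le_q : 2 ≤ Nat.card K := by
  rw [Nat.card_eq_fintype_card, hK]
  calc 2 = 2 ^ 1 := rfl
    _ ≤ 2 ^ n := Nat.pow_le_pow_right (by norm_num) hn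

theorem card_J0 : Nat.card (Jn Z 0) = Nat.card K ^ 10 := by
  have hU : (rtw (tF Z)).U = (rtw (tF Z)).X 7 ⊔ Jn Z 0 := by
    rw [(rtw (tF Z)).U_eq 1, p1_eq, Ui1_eq]
  have hinj : ∀ x ∈ (rtw (tF Z)).X 7, x ∈ Jn Z 0 → x = 1 := by
    intro x hx h
    have e1 : (rtw (tF Z)).nn 1 * x * ((rtw (tF Z)).nn 1)⁻¹ ∈ (rtw (tF Z)).V := by
      apply (rtw (tF Z)).X_le_V (r := 15) (show ¬ pos16 15 by decide +kernel)
      have h1 := (rtw (tF Z)).nn_X 1 7 x hx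
      have h2 : S16.w 1 7 = 15 := by decide +kernel
      rwa [h2] at h1
    have e2 : (rtw (tF Z)).nn 1 * x * ((rtw (tF Z)).nn 1)⁻¹ ∈ (rtw (tF Z)).U := by
      apply (rtw (tF Z)).Ui_le_U 1
      apply (rtw (tF Z)).nn_Ui 1
      rw [Ui1_eq]; exact h
    exact conj_eq_one_iff.1 ((rtw (tF Z)).U_inf_V e2 e1)
  let f : (rtw (tF Z)).X 7 × Jn Z 0 → (rtw (tF Z)).U := fun p => ⟨p.1 * p.2, by
    rw [hU]; exact mul_mem (mem_sup_left p.1.2) (mem_sup_right p.2.2)⟩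
  have h1 : Function.Injective f := by
    rintro ⟨a, u⟩ ⟨a', u'⟩ e
    have e1 : (a : ↥(tF Z).G1) * u = a' * u' := congrArg Subtype.val e
    have e2 : ((a' : ↥(tF Z).G1)⁻¹ * a) = u' * (u : ↥(tF Z).G1)⁻¹ := by
      rw [eq_mul_inv_iff_mul_eq, mul_assoc, e1, inv_mul_cancel_left]
    have e3 := hinj _ (mul_mem (inv_mem a'.2) a.2) (by rw [e2]; exact mul_mem u'.2 (inv_mem u.2))
    have e4 : a = a' := Subtype.ext (inv_mul_eq_one.1 e3).symm
    subst e4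
    rw [Subtype.ext (mul_left_cancel e1)]
  have h2 : Function.Surjective f := by
    rintro ⟨y, hy⟩
    rw [hU] at hy
    obtain ⟨a, ha, c, hc, e⟩ := mem_sup_of_normalizes (fun a ha c hc => Jn_conj7 Z ha hc) hy
    exact ⟨(⟨a, ha⟩, ⟨c, hc⟩), Subtype.ext e.symm⟩
  have h3 := Nat.card_congr (Equiv.ofBijective f ⟨h1, h2⟩)
  rw [Nat.card_prod, card_X7, card_U'] at h3
  have h4 : Nat.card K ^ 12 = Nat.card K ^ 2 * Nat.card K ^ 10 := by ring
  rw [h4] at h3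
  exact Nat.eq_of_mul_eq_mul_left (pow_pos Nat.card_pos 2) h3

end fin

end Cfsg.Agent.MulF4
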