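import Cfsg.Agent.MulF4.Pw
import Cfsg.Agent.MulF4.Int
import Cfsg.Agent.AutTF4.Blk

set_option autoImplicit false
set_option maxRecDepth 100000

/-!
The action of the torus of the twisted groups of type F4 on the root subgroups.
-/

namespace Cfsg.Agent.MulF4

open Cfsg.Lie Cfsg.Agent.Chev Cfsg.Agent.ChevGrp Cfsg.Agent.ChevGrp.DData Cfsg.Agent.ChevWeyl Cfsg.Agent.ChevTw
  Cfsg.Agent.Tw3 Cfsg.Agent.ChevGrp.RGrp Cfsg.Agent.Tw4 Cfsg.Agent.AutTF4 Cfsg.Agent.AutChev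

variable {K : Type*} [Field K] (Z : Sg K)

theorem ch1_vals : chevF4.cartan 1 33 = -1 ∧ chevF4.cartan 2 33 = 0 ∧ chevF4.cartan 1 24 = 0 ∧ chevF4.cartan 2 24 = -1 ∧
    chevF4.cartan 1 27 = 2 ∧ chevF4.cartan 2 27 = -1 ∧ chevF4.cartan 1 25 = -2 ∧ chevF4.cartan 2 25 = 2 ∧
    chevF4.cartan 1 28 = 0 ∧ chevF4.cartan 2 28 = 1 ∧ chevF4.cartan 1 30 = 2 ∧ chevF4.cartan 2 30 = 0 := by
  decide +kernel

theorem hb1_x (c : Kˣ) {s : ℕ} (hs : s < 48) (t : K) :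
    hb1 Z c * xF s t * (hb1 Z c)⁻¹ = xF s ((ch1 Z c s : Kˣ) * t) := hb1_conj Z c ⟨s, hs⟩ t

theorem hb1_eP (c : Kˣ) (t : K) : hb1 Z c * eP Z t * (hb1 Z c)⁻¹ = eP Z ((c : K)⁻¹ * t) := by
  obtain ⟨a1, a2, a3, a4, -⟩ := ch1_vals
  unfold eP
  rw [conj_mul2, hb1_x Z c (by norm_num), hb1_x Z c (by norm_num)]
  have h1 : (ch1 Z c 33 : Kˣ) = (Z.θu c)⁻¹ := by
    unfold ch1; rw [a1, a2, zpow_zero, mul_one, zpow_neg, zpow_one]
  have h2 : (ch1 Z c 24 : Kˣ) = c⁻¹ := by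
    unfold ch1; rw [a3, a4, zpow_zero, one_mul, zpow_neg, zpow_one]
  rw [h1, h2, map_mul, map_inv₀, Units.val_inv_eq_inv_val, Units.val_inv_eq_inv_val, Z.θu_val]

theorem hb1_fP (c : Kˣ) (t u : K) : hb1 Z c * fP Z t u * (hb1 Z c)⁻¹ =
    fP Z ((Z.θ c ^ 2)⁻¹ * (c : K) ^ 2 * t) (c * u) := by
  obtain ⟨-, -, -, -, a1, a2, a3, a4, a5, a6, a7, a8⟩ := ch1_vals
  have h5 : Z.θ (Z.θ (c : K)) ^ 2 = c := Z.hθ c
  have hθ0 : Z.θ (c : K) ≠ 0 := by rw [ne_eq, map_eq_zero]; exact c.ne_zero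
  have hc0 : (c : K) ≠ 0 := c.ne_zero
  unfold fP Quad.Fx
  rw [Quad.W_def, Quad.W_def, conj_mul2, conj_mul2, conj_mul2, hb1_x Z c (by norm_num), hb1_x Z c (by norm_num),
    hb1_x Z c (by norm_num), hb1_x Z c (by norm_num)]
  have h1 : ((ch1 Z c 27 : Kˣ) : K) = Z.θ c ^ 2 * (c : K)⁻¹ := by
    unfold ch1
    rw [a1, a2, zpow_neg, zpow_one, Units.val_mul, Units.val_inv_eq_inv_val, Units.val_zpow_eq_zpow_val, Z.θu_val, zpow_ofNat]
  have h2 : ((ch1 Z c 25 : Kˣ) : K) = (Z.θ c ^ 2)⁻¹ * (c : K) ^ 2 := by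
    unfold ch1
    rw [a3, a4, zpow_neg, Units.val_mul, Units.val_inv_eq_inv_val, Units.val_zpow_eq_zpow_val, Units.val_zpow_eq_zpow_val,
      Z.θu_val, zpow_ofNat, zpow_ofNat]
  have h3 : ((ch1 Z c 28 : Kˣ) : K) = (c : K) := by
    unfold ch1
    rw [a5, a6, zpow_zero, one_mul, zpow_one]
  have h4 : ((ch1 Z c 30 : Kˣ) : K) = Z.θ c ^ 2 := by
    unfold ch1
    rw [a7, a8, zpow_zero, mul_one, Units.val_zpow_eq_zpow_val, Z.θu_val, zpow_ofNat]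
  have e1 : Z.θ ((Z.θ c ^ 2)⁻¹ * (c : K) ^ 2 * t) = Z.θ c ^ 2 * (c : K)⁻¹ * Z.θ t := by
    rw [map_mul, map_mul, map_inv₀, map_pow, map_pow, h5]; ring
  rw [h1, h2, h3, h4, e1]
  congr 1
  · congr 1
    congr 1
    field_simp
  · congr 1
    rw [map_mul]; ring

/-- torus elements in the twisted group -/
noncomputable def hh1 (c : Kˣ) : ↥(tF Z).G1 := ⟨hb1 Z c, hb1_G1 Z c⟩

/-- general torus elements -/
noncomputable def tt (a b : Kˣ) : ↥(tF Z).G1 := hh0 Z a * hh1 Z b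

theorem hh1_H (c : Kˣ) : hh1 Z c ∈ (rtw (tF Z)).H := (mem_rtw_H (tF Z)).2 (hb1_H Z c)

theorem tt_H (a b : Kˣ) : tt Z a b ∈ (rtw (tF Z)).H := mul_mem (hh0_H Z a) (hh1_H Z b)

theorem tt_val (a b : Kˣ) : ((tt Z a b : ↥(tF Z).G1) : ↥(chevF4.group K)) = hb0 Z a * hb1 Z b := rfl

theorem tt_mul (a b a' b' : Kˣ) : tt Z a b * tt Z a' b' = tt Z (a * a') (b * b') := by
  apply Subtype.ext
  show hb0 Z a * hb1 Z b * (hb0 Z a' * hb1 Z b') = hb0 Z (a * a') * hb1 Z (b * b')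
  have h2 : Commute (hb1 Z b) (hb0 Z a') := (hb_comm Z _ _).symm
  rw [h2.mul_mul_mul_comm, ← hb0_mul, ← hb1_mul]

theorem chv0 (a b : Kˣ) : ((chv Z 0 a b : Kˣ) : K) = (a : K) ^ 2 * (b : K)⁻¹ := by
  have h : chv Z 0 a b = a ^ (2 : ℤ) * psi Z a ^ (0 : ℤ) * (b ^ (-1 : ℤ) * psi Z b ^ (0 : ℤ)) := rfl
  rw [h, zpow_zero, zpow_zero, mul_one, mul_one, zpow_neg, zpow_one, Units.val_mul, Units.val_inv_eq_inv_val,
    Units.val_zpow_eq_zpow_val, zpow_ofNat]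

theorem chv7 (a b : Kˣ) : ((chv Z 7 a b : Kˣ) : K) = (a : K)⁻¹ * ((Z.θ b ^ 2)⁻¹ * (b : K) ^ 2) := by
  have h : chv Z 7 a b = a ^ (-1 : ℤ) * psi Z a ^ (0 : ℤ) * (b ^ (2 : ℤ) * psi Z b ^ (-1 : ℤ)) := rfl
  rw [h, zpow_zero, mul_one, zpow_neg, zpow_one, zpow_neg, zpow_one, Units.val_mul, Units.val_mul, Units.val_inv_eq_inv_val,
    Units.val_inv_eq_inv_val, Units.val_zpow_eq_zpow_val, zpow_ofNat, psi_apply, Units.val_pow_eq_pow_val, Z.θu_val,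
    mul_comm ((b : K) ^ 2)]

theorem tt_ep (a b : Kˣ) (t : K) : tt Z a b * ep Z t * (tt Z a b)⁻¹ = ep Z ((chv Z 0 a b : Kˣ) * t) := by
  apply Subtype.ext
  show hb0 Z a * hb1 Z b * eP Z t * (hb0 Z a * hb1 Z b)⁻¹ = eP Z _
  rw [Tw4.conj_mul, hb1_eP, hb0_eP, chv0, mul_assoc]

theorem θchv7 (a b : Kˣ) : Z.θ (chv Z 7 a b : Kˣ) * (chv Z 7 a b : Kˣ) = (Z.θ a * a)⁻¹ * b := by
  have h5 : Z.θ (Z.θ (b : K)) ^ 2 = b := Z.hθ b
  have hθ0 : Z.θ (b : K) ≠ 0 := by rw [ne_eq, map_eq_zero]; exact b.ne_zero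
  have hθ1 : Z.θ (a : K) ≠ 0 := by rw [ne_eq, map_eq_zero]; exact a.ne_zero
  have hb0 : (b : K) ≠ 0 := b.ne_zero
  have ha0 : (a : K) ≠ 0 := a.ne_zero
  rw [chv7, map_mul, map_mul, map_inv₀, map_inv₀, map_pow, map_pow, h5]
  field_simp

theorem tt_fp (a b : Kˣ) (t u : K) : tt Z a b * fp Z t u * (tt Z a b)⁻¹ =
    fp Z ((chv Z 7 a b : Kˣ) * t) (Z.θ (chv Z 7 a b : Kˣ) * (chv Z 7 a b : Kˣ) * u) := by
  apply Subtype.ext
  show hb0 Z a * hb1 Z b * fP Z t u * (hb0 Z a * hb1 Z b)⁻¹ = fP Z _ _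
  rw [Tw4.conj_mul, hb1_fP, hb0_fP, θchv7, chv7]
  congr 1
  · ring
  · ring

theorem nn0_tt (a b : Kˣ) : (rtw (tF Z)).nn 0 * tt Z a b * ((rtw (tF Z)).nn 0)⁻¹ = tt Z (a⁻¹ * b) b := by
  apply Subtype.ext
  show (RF K).nd (LF 0) * (hb0 Z a * hb1 Z b) * ((RF K).nd (LF 0))⁻¹ = hb0 Z (a⁻¹ * b) * hb1 Z b
  rw [conj_mul2, n0_hb0, n0_hb1, hb0_mul, mul_assoc]

theorem nn1_tt (a b : Kˣ) : (rtw (tF Z)).nn 1 * tt Z a b * ((rtw (tF Z)).nn 1)⁻¹ = tt Z a (psi Z a * a ^ 2 * b⁻¹) := by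
  apply Subtype.ext
  show (RF K).nd (LF 1) * (hb0 Z a * hb1 Z b) * ((RF K).nd (LF 1))⁻¹ = hb0 Z a * hb1 Z (psi Z a * a ^ 2 * b⁻¹)
  rw [conj_mul2, nj1_hb0, n1_hb1, hb1_mul Z (psi Z a * a ^ 2), mul_assoc, psi_apply]

/-- the torus acts on a root subgroup through a character -/
def ActOn (s : Fin 16) (h : ↥(tF Z).G1) (χ : Kˣ) : Prop :=
  (χ = 1 → ∀ x ∈ (rtw (tF Z)).X s, h * x * h⁻¹ = x) ∧ (χ ≠ 1 → ∀ x ∈ (rtw (tF Z)).X s, h * x * h⁻¹ = x → x = 1)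

theorem actOn0 (a b : Kˣ) : ActOn Z 0 (tt Z a b) (chv Z 0 a b) := by
  constructor
  · intro h x hx
    obtain ⟨t, rfl⟩ := (mem_p0 Z x).1 hx
    rw [tt_ep, h, Units.val_one, one_mul]
  · intro h x hx e
    obtain ⟨t, rfl⟩ := (mem_p0 Z x).1 hx
    rw [tt_ep] at e
    have e1 := ep_inj Z e
    by_cases ht : t = 0
    · subst ht
      have h1 : (S0 Z).A.x 0 = 1 := (S0 Z).A.x_zero
      rw [← S0_x]; exact h1
    · exfalso
      apply h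
      apply Units.ext
      have h2 : ((chv Z 0 a b : Kˣ) : K) * t = 1 * t := by rw [one_mul]; exact e1
      exact mul_right_cancel₀ ht h2

theorem theta_ne {χ : Kˣ} (h : χ ≠ 1) : Z.θ (χ : K) * (χ : K) ≠ 1 := by
  intro h1
  apply h
  have h2 : Z.θu χ * χ = 1 := Units.ext h1
  have h3 : psi Z χ * χ ^ 2 = 1 := by
    rw [psi_apply, ← mul_pow, h2, one_pow]
  have h4 : pw Z χ ⟨2, 1⟩ = 1 := by
    unfold pw
    rw [zpow_one, mul_comm]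
    exact_mod_cast h3
  exact pw_ne Z (z := ⟨2, 1⟩) (k := 1) (Or.inl (by norm_num)) h4

theorem actOn7 (a b : Kˣ) : ActOn Z 7 (tt Z a b) (chv Z 7 a b) := by
  constructor
  · intro h x hx
    obtain ⟨t, u, rfl⟩ := (mem_p1 Z x).1 hx
    rw [tt_fp, h, Units.val_one, one_mul, map_one, one_mul, one_mul]
  · intro h x hx e
    obtain ⟨t, u, rfl⟩ := (mem_p1 Z x).1 hx
    rw [tt_fp] at e
    obtain ⟨e1, e2⟩ := fp_inj Z e
    have ht : t = 0 := by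
      by_contra ht
      apply h
      apply Units.ext
      have h2 : ((chv Z 7 a b : Kˣ) : K) * t = 1 * t := by rw [one_mul]; exact e1
      exact mul_right_cancel₀ ht h2
    have hu : u = 0 := by
      by_contra hu
      apply theta_ne Z h
      have h2 : Z.θ (chv Z 7 a b : Kˣ) * (chv Z 7 a b : Kˣ) * u = 1 * u := by rw [one_mul]; exact e2
      exact mul_right_cancel₀ hu h2
    rw [ht, hu, fp_zero]

theorem actOn_conj {s s' : Fin 16} {n h h' : ↥(tF Z).G1} {χ : Kˣ} (hn : ∀ x ∈ (rtw (tF Z)).X s, n * x * n⁻¹ ∈ (rtw (tF Z)).X s')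
    (hh : n * h * n⁻¹ = h') (h1 : ActOn Z s' h' χ) : ActOn Z s h χ := by
  have key : ∀ x : ↥(tF Z).G1, h' * (n * x * n⁻¹) * h'⁻¹ = n * (h * x * h⁻¹) * n⁻¹ := by
    intro x
    rw [← hh]; group
  constructor
  · intro hχ x hx
    have h2 := h1.1 hχ _ (hn x hx)
    rw [key] at h2
    exact mul_left_cancel (mul_right_cancel h2)
  · intro hχ x hx e
    have h2 := h1.2 hχ _ (hn x hx) (by rw [key, e])
    exact conj_eq_one_iff.1 h2

theorem step0 {s s' : Fin 16} {k k' : ℕ} (hs : S16.w 0 s = s') (h : ∀ a b, ActOn Z s' (tt Z a b) (chv Z k' a b))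
    (e1 : (chiT k).1 = -(chiT k').1) (e2 : (chiT k).2 = (chiT k').1 + (chiT k').2) :
    ∀ a b, ActOn Z s (tt Z a b) (chv Z k a b) := by
  intro a b
  have h1 := h (a⁻¹ * b) b
  have e3 : chv Z k' (a⁻¹ * b) b = chv Z k a b := by
    unfold chv
    rw [e1, e2, pw_mulx, pw_inv, pw_add, mul_assoc]
  rw [e3] at h1
  refine actOn_conj Z (n := (rtw (tF Z)).nn 0) ?_ (nn0_tt Z a b) h1
  intro x hx
  rw [← hs]
  exact (rtw (tF Z)).nn_X 0 s x hx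

theorem step1 {s s' : Fin 16} {k k' : ℕ} (hs : S16.w 1 s = s') (h : ∀ a b, ActOn Z s' (tt Z a b) (chv Z k' a b))
    (e1 : (chiT k).1 = (chiT k').1 + ⟨2, 1⟩ * (chiT k').2) (e2 : (chiT k).2 = -(chiT k').2) :
    ∀ a b, ActOn Z s (tt Z a b) (chv Z k a b) := by
  intro a b
  have h1 := h a (psi Z a * a ^ 2 * b⁻¹)
  have e3 : chv Z k' a (psi Z a * a ^ 2 * b⁻¹) = chv Z k a b := by
    unfold chv
    have e4 : psi Z a * a ^ 2 = pw Z a ⟨2, 1⟩ := by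
      unfold pw
      rw [zpow_one, mul_comm]; rfl
    rw [e4, e1, e2, pw_mulx, pw_inv, pw_pw, pw_add, mul_assoc]
  rw [e3] at h1
  refine actOn_conj Z (n := (rtw (tF Z)).nn 1) ?_ (nn1_tt Z a b) h1
  intro x hx
  rw [← hs]
  exact (rtw (tF Z)).nn_X 1 s x hx

theorem actOn_all (s : Fin 16) (hs : (s : ℕ) < 8) : ∀ a b, ActOn Z s (tt Z a b) (chv Z s a b) := by
  have h0 := actOn0 Z
  have h7 := actOn7 Z
  have h6 : ∀ a b, ActOn Z 6 (tt Z a b) (chv Z 6 a b) :=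
    step1 Z (s := 6) (s' := 0) (k := 6) (k' := 0) (by decide +kernel) h0 (by decide +kernel) (by decide +kernel)
  have h1 : ∀ a b, ActOn Z 1 (tt Z a b) (chv Z 1 a b) :=
    step0 Z (s := 1) (s' := 7) (k := 1) (k' := 7) (by decide +kernel) h7 (by decide +kernel) (by decide +kernel)
  have h2 : ∀ a b, ActOn Z 2 (tt Z a b) (chv Z 2 a b) :=
    step0 Z (s := 2) (s' := 6) (k := 2) (k' := 6) (by decide +kernel) h6 (by decide +kernel) (by decide +kernel)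
  have h5 : ∀ a b, ActOn Z 5 (tt Z a b) (chv Z 5 a b) :=
    step1 Z (s := 5) (s' := 1) (k := 5) (k' := 1) (by decide +kernel) h1 (by decide +kernel) (by decide +kernel)
  have h3 : ∀ a b, ActOn Z 3 (tt Z a b) (chv Z 3 a b) :=
    step0 Z (s := 3) (s' := 5) (k := 3) (k' := 5) (by decide +kernel) h5 (by decide +kernel) (by decide +kernel)
  have h4 : ∀ a b, ActOn Z 4 (tt Z a b) (chv Z 4 a b) :=
    step1 Z (s := 4) (s' := 2) (k := 4) (k' := 2) (by decide +kernel) h2 (by decide +kernel) (by decide +kernel)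
  have hc : s = 0 ∨ s = 1 ∨ s = 2 ∨ s = 3 ∨ s = 4 ∨ s = 5 ∨ s = 6 ∨ s = 7 := by
    revert s; decide +kernel
  rcases hc with rfl | rfl | rfl | rfl | rfl | rfl | rfl | rfl
  · exact h0
  · exact h1
  · exact h2
  · exact h3
  · exact h4
  · exact h5
  · exact h6
  · exact h7

/-- the element of the kernel of a character -/
noncomputable def tk (i : ℕ) (x : Kˣ) : ↥(tF Z).G1 := tt Z (pw Z x (-(chiT i).2)) (pw Z x (chiT i).1)

theorem tk_H (i : ℕ) (x : Kˣ) : tk Z i x ∈ (rtw (tF Z)).H := tt_H Z _ _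

/-- the kernel of the action on one root subgroup acts without fixed points on another one -/
theorem tk_act {x : Kˣ} (hx : x ≠ 1) {i j : Fin 16} (hi : (i : ℕ) < 8) (hj : (j : ℕ) < 8) (hij : i ≠ j) :
    (∀ g ∈ (rtw (tF Z)).X i, tk Z i x * g * (tk Z i x)⁻¹ = g) ∧
      ∀ g ∈ (rtw (tF Z)).X j, tk Z i x * g * (tk Z i x)⁻¹ = g → g = 1 := by
  constructor
  · apply (actOn_all Z i hi _ _).1
    rw [chv_ker, detT_self i hi, pw_zero]
  · apply (actOn_all Z j hj _ _).2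
    rw [chv_ker]
    intro h
    apply hx
    obtain ⟨k, -, hk⟩ := detT_ne i hi j hj (fun h => hij (Fin.ext h))
    exact pw_ne Z hk h

/-- the torus -/
theorem exists_tt [Finite K] {h : ↥(tF Z).G1} (hh : h ∈ (rtw (tF Z)).H) : ∃ a b, h = tt Z a b := by
  have h1 : Nat.card (rtw (tF Z)).H = Nat.card Kˣ ^ 2 := by
    rw [← card_H1 Z]
    have h2 : (rtw (tF Z)).H = ((twF Z).tw.H).subgroupOf (twF Z).G1 := rfl
    rw [h2]
    exact Nat.card_congr (Subgroup.subgroupOfEquivOfLe inf_le_right).toEquiv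
  have hfin : Finite (rtw (tF Z)).H := Nat.finite_of_card_ne_zero (by
    rw [h1]
    have : Finite Kˣ := inferInstance
    exact pow_ne_zero 2 Nat.card_pos.ne')
  have hinj : Function.Injective (fun p : Kˣ × Kˣ => (⟨tt Z p.1 p.2, tt_H Z _ _⟩ : (rtw (tF Z)).H)) := by
    rintro ⟨c, d⟩ ⟨c', d'⟩ e
    have e1 : tt Z c d = tt Z c' d' := congrArg Subtype.val e
    obtain ⟨h1, h2⟩ := tor_inj Z (congrArg Subtype.val e1)
    exact Prod.ext h1 h2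
  have hb := (Nat.bijective_iff_injective_and_card _).2 ⟨hinj, by rw [h1, Nat.card_prod, sq]⟩
  obtain ⟨p, hp⟩ := hb.2 ⟨h, hh⟩
  exact ⟨p.1, p.2, (congrArg Subtype.val hp).symm⟩

theorem H_comm [Finite K] {h k : ↥(tF Z).G1} (hh : h ∈ (rtw (tF Z)).H) (hk : k ∈ (rtw (tF Z)).H) : h * k = k * h := by
  obtain ⟨a, b, rfl⟩ := exists_tt Z hh
  obtain ⟨a', b', rfl⟩ := exists_tt Z hk
  rw [tt_mul, tt_mul, mul_comm a, mul_comm b]

end Cfsg.Agent.MulF4
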